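import Cfsg.Agent.H1.He3
import Cfsg.Agent.BS.RedZ
import Cfsg.Agent.BS.Suz5

/-! Held's theorem: the subgroup controlling the fusion of involutions is the whole group. -/

set_option autoImplicit false
set_option linter.unusedSectionVars false
set_option linter.unusedVariables false

namespace Cfsg.Agent.H9.HeG

open Subgroup Cfsg.Agent.FT Cfsg.Agent.BS Cfsg.Agent.H1 Cfsg.Agent.H1.He

theorem dihedral {G : Type*} [Group G] [Finite G] {a b : G} (ha : a * a = 1) (hb : b * b = 1) :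
    (∃ g ∈ zpowers (a * b), g * a * g⁻¹ = b) ∨ ∃ w ∈ zpowers (a * b), w ≠ 1 ∧ w * w = 1 ∧
      w * a = a * w ∧ w * b = b * w ∧
      ((∃ g ∈ zpowers (a * b), g * a * g⁻¹ = w * a ∧ g * b * g⁻¹ = w * b) ∨
        ∃ g ∈ zpowers (a * b), g * b * g⁻¹ = w * a) := by
  have ia : a⁻¹ = a := inv_eq_of_mul_eq_one_right ha
  have ib : b⁻¹ = b := inv_eq_of_mul_eq_one_right hb
  have h1 : ∀ j : ℕ, a * ((a * b) ^ j)⁻¹ = (a * b) ^ j * a := fun j => by
    have : a * (a * b)⁻¹ * a⁻¹ = a * b := by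
      rw [mul_inv_rev, ia, ib, ← mul_assoc, mul_assoc (a * b), ha, mul_one]
    rw [← inv_pow, ← mul_inv_eq_iff_eq_mul, ← conj_pow, this]
  have h2 : ∀ j : ℕ, b * ((a * b) ^ j)⁻¹ = (a * b) ^ j * b := fun j => by
    have : b * (a * b)⁻¹ * b⁻¹ = a * b := by
      rw [mul_inv_rev, ia, ib, ← mul_assoc, hb, one_mul]
    rw [← inv_pow, ← mul_inv_eq_iff_eq_mul, ← conj_pow, this]
  have h3 : ∀ j : ℕ, (a * b) ^ j * a * ((a * b) ^ j)⁻¹ = (a * b) ^ (2 * j) * a := fun j => by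
    rw [mul_assoc, h1, ← mul_assoc, ← pow_add, two_mul]
  have h4 : ∀ j : ℕ, (a * b) ^ j * b * ((a * b) ^ j)⁻¹ = (a * b) ^ (2 * j) * b := fun j => by
    rw [mul_assoc, h2, ← mul_assoc, ← pow_add, two_mul]
  have h5 : a * b * b = a := by rw [mul_assoc, hb, mul_one]
  have hn := pow_orderOf_eq_one (a * b)
  have m : ∀ j : ℕ, (a * b) ^ j ∈ zpowers (a * b) := fun j => pow_mem (mem_zpowers _) j
  rcases Nat.even_or_odd' (orderOf (a * b)) with ⟨k, hk | hk⟩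
  · right
    have hw : (a * b) ^ k * (a * b) ^ k = 1 := by rw [← pow_add, ← two_mul, ← hk, hn]
    have hi := inv_eq_of_mul_eq_one_right hw
    have hp := orderOf_pos (a * b)
    refine ⟨_, m k, pow_ne_one_of_lt_orderOf (by omega) (by omega), hw, by rw [← h1, hi],
      by rw [← h2, hi], ?_⟩
    rcases Nat.even_or_odd' k with ⟨j, rfl | rfl⟩
    · exact Or.inl ⟨_, m j, h3 j, h4 j⟩
    · refine Or.inr ⟨_, m (j + 1), ?_⟩
      rw [h4, show 2 * (j + 1) = 2 * j + 1 + 1 by ring, pow_succ _ (2 * j + 1), mul_assoc, h5]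
  · left
    refine ⟨_, m k, ?_⟩
    rw [hk, pow_succ, ← mul_assoc] at hn
    rw [h3]
    exact (eq_inv_of_mul_eq_one_left hn).trans ib

theorem endgame {X : Type*} [Group X] [Finite X] (V M : Subgroup X) [V.Normal] (hVM : V ≤ M)
    (hM : M ≠ ⊤) (h1 : ∀ x, x * x ∈ V → x ∉ V → ∃ c, c⁻¹ * x * c ∈ M)
    (h2 : ∀ x, x * x ∈ V → x ∉ V → x ∈ M → ∀ c, c⁻¹ * x * c ∈ M → c ∈ M) {a b w : X}
    (ha : a ∈ M) (hb : b ∈ M) (hw : a * b * (a * b) = w) (aa : a * a = 1) (bb : b * b = 1)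
    (ww : w * w = 1) (a1 : a ∉ V) (b1 : b ∉ V) (w1 : w ∉ V) (aw : a * w = w * a)
    (aw1 : a⁻¹ * w ∉ V) : False := by
  let π := QuotientGroup.mk' V
  have hπ : ∀ x, π x ∈ M.map π ↔ x ∈ M := fun x =>
    ⟨fun ⟨y, hy, e⟩ => by
      simpa using mul_mem hy (hVM (QuotientGroup.eq.1 e)), fun h => ⟨x, h, rfl⟩⟩
  have one : ∀ x, π x = 1 ↔ x ∈ V := fun x => QuotientGroup.eq_one_iff x
  have fix : ∀ x c : X, π x • ((π c : X ⧸ V) : (X ⧸ V) ⧸ M.map π) = (π c : X ⧸ V) ↔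
      c⁻¹ * x * c ∈ M := fun x c => by
    rw [eq_comm, MulAction.Quotient.smul_coe, QuotientGroup.eq, smul_eq_mul, ← map_inv, ← map_mul,
      ← map_mul, hπ, mul_assoc]
  have pt : ∀ p : (X ⧸ V) ⧸ M.map π, ∃ c : X, p = (π c : X ⧸ V) := fun p => by
    obtain ⟨q, rfl⟩ := QuotientGroup.mk_surjective p
    obtain ⟨c, rfl⟩ := QuotientGroup.mk'_surjective V q
    exact ⟨c, rfl⟩
  haveI : OneFix (X ⧸ V) ((X ⧸ V) ⧸ M.map π) := ⟨fun t ht => by
      obtain ⟨x, rfl⟩ := QuotientGroup.mk'_surjective V t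
      obtain ⟨c, hc⟩ := h1 x ((one _).1 (by rw [map_mul]; exact sq1 ht))
        fun h => ne1 ht ((one _).2 h)
      exact ⟨_, (fix x c).2 hc⟩, fun t ht p q hp hq => by
      obtain ⟨x, rfl⟩ := QuotientGroup.mk'_surjective V t
      obtain ⟨c, rfl⟩ := pt p
      obtain ⟨d, rfl⟩ := pt q
      have hp := (fix x c).1 hp
      have hq := (fix x d).1 hq
      have := h2 (c⁻¹ * x * c) ((one _).1 (by
          have := sq1 ht
          simp only [map_mul, map_inv]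
          calc _ = (π c)⁻¹ * (π x * π x) * π c := by group
            _ = 1 := by rw [this]; group))
        (fun h => ne1 ht (by
          have := (one _).2 h
          simp only [map_mul, map_inv] at this
          calc π x = π c * ((π c)⁻¹ * π x * π c) * (π c)⁻¹ := by group
            _ = 1 := by rw [this]; group)) hp (c⁻¹ * d) (by convert hq using 1; group)
      rw [QuotientGroup.eq, ← map_inv, ← map_mul, hπ]
      exact this⟩
  have o2 : ∀ x, x * x = 1 → x ∉ V → orderOf (π x) = 2 := fun x h h' =>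
    ord2 (by rw [← map_mul, h, map_one]) fun e => h' ((one _).1 e)
  have zi : ∀ x ∈ M, x * x = 1 → x ∉ V → Zi ((π 1 : X ⧸ V) : (X ⧸ V) ⧸ M.map π) (π x) :=
    fun x hx h h' => ⟨o2 x h h', (fix x 1).2 (by simpa using hx)⟩
  have nt : ¬ (⊤ : Subgroup (X ⧸ V)) ≤ St (X ⧸ V) ((π 1 : X ⧸ V) : (X ⧸ V) ⧸ M.map π) :=
    fun h => hM (eq_top_iff.2 fun x _ => by simpa using (fix x 1).1 (h (mem_top (π x))))
  have bt := bt_of regThm twoThm (zi a ha aa a1) (mem_top _) ⟨π a, mem_top _, π w, mem_top _,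
    o2 a aa a1, o2 w ww w1, fun e => aw1 (QuotientGroup.eq.1 e),
    by rw [← map_mul, aw, map_mul]⟩ nt
  have := bt.sq_mem nt (zi a ha aa a1) (mem_top _) (zi b hb bb b1) (mem_top _)
  rw [← map_mul, ← map_mul, hw] at this
  have h3 := (odd_kr nt).of_dvd_nat (orderOf_dvd_card' this)
  rw [o2 w ww w1] at h3
  exact absurd h3 (by decide)

theorem f1 : cl t = 3 ∧ cl (z * t) = 3 ∧ Dc (t1 * z) ∧ Dc (t1 * z * t) ∧ t ∈ T0 ∧ t1 ∈ T0 ∧
    z ∈ T0 ∧ t * t = 1 ∧ t1 * t1 = 1 ∧ t1 * t = t * t1 ∧ z * t * (z * t) = 1 ∧ t1 ≠ 1 ∧ t1 ≠ t ∧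
    t * t1 ≠ 1 ∧ t * t1 ≠ t := by decide +kernel

theorem f2 : ∀ y ∈ [s0, x13, x23, x34, x35], y ∈ T0 ∧ y * t = t * y ∧ y * y = 1 := by
  decide +kernel

theorem f3 : s0 * (t * t1) = t1 * s0 ∧ x13 * t1 = t1 * x13 ∧ x34 * t1 = t1 * x34 ∧
    x13 * x34 * (x13 * x34) = x14 ∧ x14 * x14 = 1 ∧ ¬ InV x13 ∧ ¬ InV x34 ∧ ¬ InV x14 ∧
    x13 * x14 = x14 * x13 ∧ ¬ InV (x13 * x14) := by decide +kernel

theorem f4 : ∀ a ∈ [1, t, t1, t * t1], a * a = 1 ∧ a * t = t * a ∧ a * t1 = t1 * a ∧ a ∈ T0 ∧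
    ∀ b ∈ [1, t, t1, t * t1], InV (a * b) := by decide +kernel

theorem inV_mem {y : HC} (h : InV y) : y ∈ [1, t, t1, t * t1] := by
  simpa [InV] using h

/-- the four-group `V` -/
def V0 : Subgroup HC where
  carrier := {y | InV y}
  one_mem' := Or.inl rfl
  mul_mem' ha hb := (f4 _ (inV_mem ha)).2.2.2.2 _ (inV_mem hb)
  inv_mem' {a} ha := by rwa [inv_eq_of_mul_eq_one_right (f4 _ (inV_mem ha)).1]

variable {G : Type*} [Group G] [Finite G] {ι : HC →* G} {G0 : Subgroup G}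

/-- the hypotheses -/
structure Cx (ι : HC →* G) (G0 : Subgroup G) : Prop where
  H : Hs ι
  hH : ∀ h, ι h ∈ G0
  hnt : ¬ IsConj (ι z) (ι t)
  hD : ∀ k, k = 1 ∨ k = 2 ∨ k = 4 → ∃ g ∈ G0, g * ι z * g⁻¹ = ι (rp k)
  h5 : ∃ g ∈ G0, g * ι t * g⁻¹ = ι (rp 5)
  h67 : ∀ k, k = 6 ∨ k = 7 → ∃ g ∈ G0, g * ι z * g⁻¹ = ι (rp k) ∨ g * ι t * g⁻¹ = ι (rp k)

theorem isConj_cj (g y : G) : IsConj y (g * y * g⁻¹) := isConj_iff.2 ⟨g, rfl⟩

theorem conj_rp {y : HC} (hT : y ∈ T0) (h : y * y = 1) : IsConj (ι (rp (cl y))) (ι y) :=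
  isConj_iff.2 ⟨ι (cw y), by rw [← map_inv, ← map_mul, ← map_mul, cls' hT h]⟩

namespace Cx

variable (C : Cx ι G0)
include C

theorem invol {y : G} (hy : y ∈ G0) (h2 : y * y = 1) (h1 : y ≠ 1) :
    ∃ g ∈ G0, g * ι z * g⁻¹ = y ∨ g * ι t * g⁻¹ = y := by
  obtain ⟨g, hg, k, hk, rfl⟩ := C.H.inv_cls C.hH hy h2
  suffices ∃ h ∈ G0, h * ι z * h⁻¹ = ι (rp k) ∨ h * ι t * h⁻¹ = ι (rp k) by
    obtain ⟨h, hh, e⟩ := this
    refine ⟨g * h, mul_mem hg hh, e.imp (fun e => ?_) fun e => ?_⟩ <;> rw [← e] <;> group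
  obtain ⟨e0, -, -, e3, -, e8⟩ := rp_eq
  interval_cases k
  · exact ⟨1, one_mem _, Or.inl (by simp [e0])⟩
  · exact (C.hD 1 (by simp)).imp fun _ h => ⟨h.1, Or.inl h.2⟩
  · exact (C.hD 2 (by simp)).imp fun _ h => ⟨h.1, Or.inl h.2⟩
  · exact ⟨1, one_mem _, Or.inr (by simp [e3])⟩
  · exact (C.hD 4 (by simp)).imp fun _ h => ⟨h.1, Or.inl h.2⟩
  · exact C.h5.imp fun _ h => ⟨h.1, Or.inr h.2⟩
  · exact C.h67 6 (by simp)
  · exact C.h67 7 (by simp)
  · simp [e8] at h1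

theorem cz {g : G} (h : g * ι z = ι z * g) : g ∈ G0 := by
  obtain ⟨a, rfl⟩ := C.H.cen g h
  exact C.hH a

theorem z_ne : ι z ≠ 1 := fun h => zz.2.1 (C.H.inj (by rw [h, map_one]))

theorem k1 {g : G} (h : g * ι z * g⁻¹ ∈ G0) : g ∈ G0 := by
  obtain ⟨k, hk, e | e⟩ := C.invol h (by rw [conj_mul, ← map_mul, zz.1]; simp)
    (by simpa using C.z_ne)
  · have : k⁻¹ * g ∈ G0 := C.cz (by
      calc _ = k⁻¹ * (g * ι z * g⁻¹) * g := by group
        _ = _ := by rw [← e]; group)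
    simpa using mul_mem hk this
  · exact absurd (((isConj_cj g _).trans (e ▸ (isConj_cj k _).symm))) C.hnt

/-- an element of `D` fixes at most one point -/
theorem uniq {d c : G} (hd : IsConj (ι z) d) (h : d ∈ G0) (hc : c⁻¹ * d * c ∈ G0) : c ∈ G0 := by
  obtain ⟨g, rfl⟩ := isConj_iff.1 hd
  have h1 := C.k1 h
  have h2 : c⁻¹ * g ∈ G0 := C.k1 (by convert hc using 1; group)
  simpa using mul_mem h1 (inv_mem h2)

theorem cent {d c : G} (hd : IsConj (ι z) d) (h : d ∈ G0) (hc : c * d = d * c) : c ∈ G0 :=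
  C.uniq hd h (by rwa [mul_assoc, ← hc, inv_mul_cancel_left])

theorem ofDc {y : HC} (hT : y ∈ T0) (h : Dc y) : IsConj (ι z) (ι y) := by
  refine IsConj.trans ?_ (conj_rp hT h.1)
  rcases h.2 with e | e
  · rw [e, rp_eq.1]
  · obtain ⟨g, -, e⟩ := C.hD _ e
    exact isConj_iff.2 ⟨g, e⟩

theorem not3 {y : HC} (hT : y ∈ T0) (h : y * y = 1) (h3 : cl y = 3) : ¬ IsConj (ι z) (ι y) :=
  fun h' => C.hnt (by
    have := conj_rp (ι := ι) hT h
    rw [h3, rp_eq.2.2.2.1] at this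
    exact h'.trans this.symm)

theorem cl5 {y : HC} (hT : y ∈ T0) (h : y * y = 1) (h1 : y ≠ 1) (h2 : ¬ IsConj (ι z) (ι y))
    (h3 : IsConj (ι z) (ι y * ι z)) : cl y = 5 := by
  obtain ⟨e | e | e | e | e, e8, -⟩ := clz y hT h
  · exfalso
    have := conj_rp (ι := ι) (mul_mem hT f1.2.2.2.2.2.2.1) (by
      rw [mul_assoc, ← mul_assoc z, ← He.zc, mul_assoc y, zz.1, mul_one, h])
    rw [e, map_mul] at this
    exact h2 (h3.trans (this.symm.trans (conj_rp hT h)))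
  · exact absurd (C.ofDc hT ⟨h, by simp [e]⟩) h2
  · exact absurd (C.ofDc hT ⟨h, by simp [e]⟩) h2
  · exact e
  · exact absurd (e8 e) h1

theorem caseA (h : ∀ g, g * ι t = ι t * g → g ∈ G0) : G0 = ⊤ := by
  have tt : ι t * ι t = 1 := by rw [← map_mul, f1.2.2.2.2.2.2.2.1, map_one]
  have k2 : ∀ g, g * ι t * g⁻¹ ∈ G0 → g ∈ G0 := fun g hg => by
    obtain ⟨k, hk, e | e⟩ := C.invol hg (by rw [conj_mul, tt]; simp) (fun e => by
      have : t = 1 := C.H.inj (by simpa using e)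
      exact absurd this (by decide +kernel))
    · exact absurd (((isConj_cj k _).trans (e ▸ (isConj_cj g _).symm))) C.hnt
    · have : k⁻¹ * g ∈ G0 := h _ (by
        calc _ = k⁻¹ * (g * ι t * g⁻¹) * g := by group
          _ = _ := by rw [← e]; group)
      simpa using mul_mem hk this
  refine eq_top_iff.2 fun g _ => k2 g ?_
  rcases dihedral (a := ι z) (b := g * ι t * g⁻¹) (by rw [← map_mul, zz.1, map_one])
    (by rw [conj_mul, tt]; simp) with ⟨k, -, e⟩ | ⟨w, -, w1, w2, w3, w4, -⟩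
  · exact absurd (((isConj_cj k _).trans (e ▸ (isConj_cj g _).symm))) C.hnt
  · obtain ⟨k, hk, e | e⟩ := C.invol (C.cz w3) w2 w1
    · exact C.cent (e ▸ isConj_cj k _) (C.cz w3) w4.symm
    · have : k⁻¹ * (g * ι t * g⁻¹) * k ∈ G0 := h _ (by
        calc _ = k⁻¹ * ((g * ι t * g⁻¹) * w) * k := by rw [← e]; group
          _ = _ := by rw [← w4, ← e]; group)
      have := mul_mem (mul_mem hk this) (inv_mem hk)
      simpa [mul_assoc] using this

theorem claim {c : G} (hc : c * ι t = ι t * c) : c⁻¹ * ι t1 * c ∈ G0 := by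
  obtain ⟨c3, czt, d1, d2, tT, t1T, zT, tt, t11, t1t, zt2, -⟩ := f1
  by_cases hc0 : c ∈ G0
  · exact mul_mem (mul_mem (inv_mem hc0) (C.hH _)) hc0
  obtain ⟨d, hd⟩ : ∃ d, d = c * ι (t1 * z) * c⁻¹ := ⟨_, rfl⟩
  have D1 := C.ofDc (mul_mem t1T zT) d1
  have Dd : IsConj (ι z) d := hd ▸ D1.trans (isConj_cj c _)
  have dt : d * ι t = c * ι (t1 * z * t) * c⁻¹ := by
    rw [hd, map_mul _ _ t, mul_assoc (c * _), (show Commute c (ι t) from hc).inv_left.eq]; group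
  have dt' : d * ι t = ι t * d := by
    rw [dt, hd, ← mul_assoc, ← mul_assoc, ← hc, mul_assoc c (ι t), ← map_mul, mul_assoc t1,
      ← He.zc t, ← mul_assoc t1, t1t, mul_assoc t]
  have Ddt : IsConj (ι z) (d * ι t) :=
    dt ▸ (C.ofDc (mul_mem (mul_mem t1T zT) tT) d2).trans (isConj_cj c _)
  have nzt : ¬ IsConj (ι z) (ι z * ι t) := map_mul ι z t ▸ C.not3 (mul_mem zT tT) zt2 czt
  have fixc : ∀ w, w * d = d * w → c⁻¹ * w * c ∈ G0 := fun w hw =>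
    C.cent D1 (C.hH _) (by
      calc _ = c⁻¹ * (w * d) * c := by rw [hd]; group
        _ = _ := by rw [hw, hd]; group)
  have zt : Commute (ι z) (ι t) := (zc' t).symm
  have cm : ∀ g ∈ zpowers (ι z * d), Commute g (ι t) := by
    rintro _ ⟨n, rfl⟩
    exact (zt.mul_left dt').zpow_left n
  have cjt : ∀ g ∈ zpowers (ι z * d), ∀ y, g * (y * ι t) * g⁻¹ = g * y * g⁻¹ * ι t :=
    fun g hg y => by rw [mul_assoc (g * y), (cm g hg).inv_left.eq]; group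
  have dd : d * d = 1 := by rw [hd, conj_mul, ← map_mul, d1.1]; simp
  rcases dihedral (a := ι z) (b := d) (by rw [← map_mul, zz.1, map_one]) dd with
    ⟨g, hg, e⟩ | ⟨w, hw, w1, w2, w3, w4, w5⟩
  · exact absurd (Ddt.trans (by rw [← e, ← cjt g hg]; exact (isConj_cj g _).symm)) nzt
  have wt := cm w hw
  have nw : ¬ IsConj (ι z) w := fun h => hc0 (C.uniq h (C.cz w3) (fixc w w4))
  have wtd : w * ι t * d = d * (w * ι t) :=
    (Commute.mul_left (show Commute w d from w4) (show Commute (ι t) d from dt'.symm)).eq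
  have nwt : ¬ IsConj (ι z) (w * ι t) := fun h =>
    hc0 (C.uniq h (mul_mem (C.cz w3) (C.hH _)) (fixc _ wtd))
  have tt' : ι t * ι t = 1 := by rw [← map_mul, tt, map_one]
  have wt2 : w * ι t * (w * ι t) = 1 := by
    rw [mul_assoc, ← mul_assoc (ι t), ← wt.eq, mul_assoc, tt', mul_one, w2]
  rcases w5 with ⟨g, hg, e1, e2⟩ | ⟨g, hg, e⟩
  · exfalso
    have wt1 : w * ι t ≠ 1 := fun h => by
      have : w = ι t := by rw [eq_inv_of_mul_eq_one_left h, inv_eq_of_mul_eq_one_right tt']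
      exact nzt (by rw [zt.eq, ← this, ← e1]; exact isConj_cj g _)
    obtain ⟨k, hk⟩ := isConj_iff.1 Dd
    have tr : ∀ y : G, y * d = d * y → ∃ a, ι a = k⁻¹ * y * k := fun y hy => C.H.cen _ (by
      calc _ = k⁻¹ * (y * d) * k := by rw [← hk]; group
        _ = _ := by rw [hy, ← hk]; group)
    obtain ⟨a, ha⟩ := tr _ dt'.symm
    obtain ⟨g', ⟨h, rfl⟩, j, hj, ej⟩ := C.H.inv_cls (K := ι.range) (fun h => ⟨h, rfl⟩) ⟨a, rfl⟩
      (by rw [ha]; calc _ = k⁻¹ * (ι t * ι t) * k := by group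
        _ = 1 := by rw [tt']; group)
    obtain ⟨k, hk, ek⟩ : ∃ k : G, k * ι z * k⁻¹ = d ∧ k * ι (rp j) * k⁻¹ = ι t :=
      ⟨k * ι h, by rw [← hk, mul_assoc k, zc']; group, by
        calc _ = k * (ι h * ι (rp j) * (ι h)⁻¹) * k⁻¹ := by group
          _ = _ := by rw [ej, ha]; group⟩
    have five : ∀ y ∈ T0, ∀ u, k * ι y * k⁻¹ = u → u * u = 1 → u ≠ 1 → ¬ IsConj (ι z) u →
        IsConj (ι z) (u * d) → cl y = 5 := by
      rintro y hy _ rfl u2 u1 n1 n2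
      refine C.cl5 hy (C.H.inj ?_) (fun h => u1 (by simp [h]))
        (fun h => n1 (h.trans (isConj_cj k _))) ?_
      · rw [conj_mul] at u2
        simpa using u2
      · rw [← hk, conj_mul] at n2
        exact n2.trans (isConj_cj k _).symm
    have j5 := five _ (rp0 j hj).2.1 _ ek tt' (fun e => by
      have : t = 1 := C.H.inj (by simpa using e)
      exact absurd this (by decide +kernel)) C.hnt (dt' ▸ Ddt)
    rw [(rp0 j hj).1] at j5
    subst j5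
    obtain ⟨y, hy⟩ := C.H.cen (k⁻¹ * w * k) (by
      calc _ = k⁻¹ * (w * d) * k := by rw [← hk]; group
        _ = _ := by rw [w4, ← hk]; group)
    have yc : y * rp 5 = rp 5 * y := C.H.comm (by
      rw [hy]
      calc _ = k⁻¹ * (w * ι t) * k := by rw [← ek]; group
        _ = _ := by rw [wt.eq, ← ek]; group)
    have yT := cent_v yc
    refine lemA y yT yc (five y yT w (by rw [hy]; group) w2 w1 nw
      (e2 ▸ Dd.trans (isConj_cj g _)))
      (five _ (mul_mem yT (rp0 5 hj).2.1) (w * ι t) (by rw [map_mul, hy, ← ek]; group) wt2 wt1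
        nwt ?_)
    rw [mul_assoc, ← dt', ← mul_assoc, ← e2, ← cjt g hg]
    exact Ddt.trans (isConj_cj g _)
  · obtain ⟨y, rfl⟩ := C.H.cen w w3
    have yt := C.H.comm wt.eq
    have yT := cent_t yt
    have y2 : y * y = 1 := C.H.inj (by rw [map_mul, w2, map_one])
    have y5 := C.cl5 yT y2 (fun h => w1 (by simp [h])) nw (e ▸ Dd.trans (isConj_cj g _))
    have y5' := C.cl5 (mul_mem yT tT) (C.H.inj (by simpa using wt2)) (fun h => by
      have : y = t := by rw [eq_inv_of_mul_eq_one_left h, inv_eq_of_mul_eq_one_right tt]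
      rw [this, c3] at y5
      omega) (by rwa [map_mul]) (by
        rw [map_mul, mul_assoc, ← zt.eq, ← mul_assoc, ← e, ← cjt g hg]
        exact Ddt.trans (isConj_cj g _))
    rcases lemB y yT yt y5 y5' with rfl | rfl
    · exact fixc _ w4
    · have := fixc _ wtd
      rwa [← map_mul, mul_assoc t, t1t, ← mul_assoc t, tt, one_mul] at this

theorem mem_S {g : G} : g ∈ (T0 ⊓ 𝐂[t]).map ι ↔ g * ι z = ι z * g ∧ g * ι t = ι t * g := by
  constructor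
  · rintro ⟨y, ⟨-, hy⟩, rfl⟩
    exact ⟨zc' y, by rw [← map_mul, mem_cent1_iff.1 hy, map_mul]⟩
  · rintro ⟨h1, h2⟩
    obtain ⟨y, rfl⟩ := C.H.cen g h1
    have := C.H.comm h2
    exact ⟨y, ⟨cent_t this, mem_cent1_iff.2 this⟩, rfl⟩

theorem sylS : Syl 2 ((T0 ⊓ 𝐂[t]).map ι) 𝐂[ι t] := by
  refine (Syl.refl ((pT ι).to_le (map_mono inf_le_left))).of_normalizer_le
    (fun g hg => mem_cent1_iff.2 (C.mem_S.1 hg).2) fun g hg => ?_
  have gt := mem_cent1_iff.1 hg.1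
  obtain ⟨y, hy, e⟩ := conj_mem_of_mem_normalizer hg.2 (C.mem_S.2 ⟨rfl, (zc' t).symm⟩)
  have cm : ∀ s ∈ [s0, x13, x23, x34, x35], y * s = s * y := fun s hs => C.H.comm (by
    have := (C.mem_S.1 (conj_mem_of_mem_normalizer (inv_mem hg.2)
      (mem_map_of_mem ι (⟨(f2 s hs).1, mem_cent1_iff.2 (f2 s hs).2.1⟩ : s ∈ T0 ⊓ 𝐂[t])))).1
    rw [e]
    calc _ = g * (ι z * (g⁻¹ * ι s * g⁻¹⁻¹)) * g⁻¹ := by group
      _ = _ := by rw [← this]; group)
  refine C.mem_S.2 ⟨?_, gt⟩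
  rcases ctrS y hy.1 (cm _ (by simp)) (cm _ (by simp)) (cm _ (by simp)) (cm _ (by simp))
    (cm _ (by simp)) with rfl | rfl | h
  · exact absurd (by simpa using e.symm) C.z_ne
  · exact mul_inv_eq_iff_eq_mul.1 e.symm
  · refine absurd (e ▸ isConj_cj g _) (C.not3 hy.1 (C.H.inj ?_) h)
    rw [map_mul, e, conj_mul, ← map_mul, zz.1]; simp

theorem caseB (hB : ¬ 𝐂[ι t] ≤ G0) : False := by
  let N : Subgroup G :=
    { carrier := {n | n ∈ 𝐂[ι t] ∧ ∀ c ∈ 𝐂[ι t], c⁻¹ * n * c ∈ G0}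
      one_mem' := ⟨one_mem _, fun c _ => by simp⟩
      mul_mem' := fun {a b} ha hb => ⟨mul_mem ha.1 hb.1, fun c hc => by
        convert mul_mem (ha.2 c hc) (hb.2 c hc) using 1; group⟩
      inv_mem' := fun {a} ha => ⟨inv_mem ha.1, fun c hc => by
        convert inv_mem (ha.2 c hc) using 1; group⟩ }
  have Nc : ∀ g ∈ 𝐂[ι t], ∀ n ∈ N, g * n * g⁻¹ ∈ N := fun g hg n hn =>
    ⟨mul_mem (mul_mem hg hn.1) (inv_mem hg), fun c hc => by
      convert hn.2 (g⁻¹ * c) (mul_mem (inv_mem hg) hc) using 1; group⟩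
  have Nn : N ⊴ 𝐂[ι t] := ⟨fun n hn => hn.1, fun g hg => mem_normalizer_fintype (Nc g hg)⟩
  have NG : N ≤ G0 := fun n hn => by simpa using hn.2 1 (one_mem _)
  have ND : ∀ n ∈ N, ¬ IsConj (ι z) n := fun n hn h =>
    hB fun c hc => C.uniq h (NG hn) (hn.2 c hc)
  have tN : ι t ∈ N := ⟨mem_cent1_iff.2 rfl, fun c hc => by
    rw [mul_assoc, ← mem_cent1_iff.1 hc, inv_mul_cancel_left]; exact C.hH _⟩
  have t1N : ι t1 ∈ N := ⟨mem_cent1_iff.2 (by rw [← map_mul, f1.2.2.2.2.2.2.2.2.2.1, map_mul]),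
    fun c hc => C.claim (mem_cent1_iff.1 hc)⟩
  have VN : V0.map ι ≤ N := by
    rintro _ ⟨y, rfl | rfl | rfl | rfl, rfl⟩
    · simp
    · exact tN
    · exact t1N
    · rw [map_mul]; exact mul_mem tN t1N
  have SN : (T0 ⊓ 𝐂[t]).map ι ⊓ N = V0.map ι := by
    refine le_antisymm ?_ (le_inf (map_mono fun y hy =>
      ⟨(f4 y (inV_mem hy)).2.2.2.1, mem_cent1_iff.2 (f4 y (inV_mem hy)).2.1⟩) VN)
    rintro _ ⟨⟨y, hy, rfl⟩, hN⟩
    refine mem_map_of_mem _ ?_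
    have P : ∀ s ∈ [s0, x13, x23, x34, x35], ∀ a ∈ T0 ⊓ N.comap ι, s * a * s ∈ T0 ⊓ N.comap ι :=
      fun s hs a ha => ⟨mul_mem (mul_mem (f2 s hs).1 ha.1) (f2 s hs).1, by
        have := Nc (ι s) (mem_cent1_iff.2 (by rw [← map_mul, (f2 s hs).2.1, map_mul])) _ ha.2
        rwa [← map_inv, inv_eq_of_mul_eq_one_right (f2 s hs).2.2, ← map_mul, ← map_mul] at this⟩
    have Q : ∀ a ∈ T0 ⊓ N.comap ι, ¬ Dc a := fun a ha h => ND _ ha.2 (C.ofDc ha.1 h)
    have hy' : y ∈ T0 ⊓ N.comap ι := ⟨hy.1, hN⟩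
    have P' : ∀ s ∈ [s0, x13, x23, x34, x35], y * s * y * s ∈ T0 ⊓ N.comap ι := fun s hs => by
      have := mul_mem hy' (P s hs y hy')
      simpa only [mul_assoc] using this
    rcases kerV y hy.1 (mem_cent1_iff.1 hy.2) with h | h | h | h | h | h | h
    · exact h
    · exact absurd h (Q _ hy')
    · exact absurd h (Q _ (mul_mem hy' ⟨f1.2.2.2.2.1, tN⟩))
    · exact absurd h (Q _ (P' _ (by simp)))
    · exact absurd h (Q _ (P' _ (by simp)))
    · exact absurd h (Q _ (P' _ (by simp)))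
    · have := mul_mem hy' (P x23 (by simp) _ (inv_T hy.1 ▸ inv_mem hy'))
      exact absurd h (Q _ (mul_mem this (P _ (by simp) _ this)))
  have fr := (SN ▸ C.sylS.inf_of_nrm Nn).frattini' Nn
  have cases : ∀ g ∈ 𝐂[ι t] ⊓ 𝐍(V0.map ι), g * ι t1 * g⁻¹ = ι t1 ∨ g * ι t1 * g⁻¹ = ι (t * t1) := by
    intro g hg
    obtain ⟨-, -, -, -, -, -, -, -, -, -, -, n1, n2, -⟩ := f1
    obtain ⟨y, rfl | rfl | rfl | rfl, e⟩ := conj_mem_of_mem_normalizer hg.2
      (mem_map_of_mem ι (Or.inr (Or.inr (Or.inl rfl)) : t1 ∈ V0))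
    · exact absurd (C.H.inj (by simpa using e.symm)) n1
    · refine absurd (C.H.inj ?_) n2
      rw [eq_mul_inv_iff_mul_eq, ← mem_cent1_iff.1 hg.1] at e
      exact (mul_left_cancel e).symm
    · exact Or.inl e.symm
    · exact Or.inr e.symm
  let X : Subgroup G := 𝐂[ι t] ⊓ 𝐂[ι t1]
  have cV : ∀ g ∈ X, ∀ v ∈ V0.map ι, g * v = v * g := by
    rintro g ⟨h1, h2⟩ _ ⟨y, rfl | rfl | rfl | rfl, rfl⟩
    · simp
    · exact mem_cent1_iff.1 h1
    · exact mem_cent1_iff.1 h2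
    · rw [map_mul]
      exact (Commute.mul_right (mem_cent1_iff.1 h1) (mem_cent1_iff.1 h2)).eq
  have XG : ¬ X ≤ G0 := fun hX => hB (by
    rw [← fr]
    refine sup_le NG fun g hg => ?_
    rcases cases g hg with e | e
    · exact hX ⟨hg.1, mem_cent1_iff.2 (mul_inv_eq_iff_eq_mul.1 e)⟩
    · have : ι s0 * g ∈ G0 := hX ⟨mul_mem (mem_cent1_iff.2 (by
          rw [← map_mul, (f2 s0 (by simp)).2.1, map_mul])) hg.1, mem_cent1_iff.2 (by
        rw [mul_assoc, mul_inv_eq_iff_eq_mul.1 e, ← mul_assoc, ← map_mul, f3.1, map_mul,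
          mul_assoc])⟩
      simpa using mul_mem (inv_mem (C.hH s0)) this)
  have Xle : X ≤ 𝐂[ι t] ⊓ 𝐍(V0.map ι) := fun g hg => ⟨hg.1, mem_normalizer_fintype fun v hv => by
    rwa [cV g hg v hv, mul_inv_cancel_right]⟩
  have Xn : X ⊴ 𝐂[ι t] ⊓ 𝐍(V0.map ι) := ⟨Xle, fun g hg => mem_normalizer_fintype fun x hx =>
    ⟨mul_mem (mul_mem hg.1 hx.1) (Subgroup.inv_mem _ hg.1), mem_cent1_iff.2 (by
      have := cV x hx _ (conj_mem_of_mem_normalizer (inv_mem hg.2)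
        (mem_map_of_mem ι (Or.inr (Or.inr (Or.inl rfl)) : t1 ∈ V0)))
      calc _ = g * (x * (g⁻¹ * ι t1 * g⁻¹⁻¹)) * g⁻¹ := by group
        _ = _ := by rw [this]; group)⟩⟩
  have sy : Syl 2 ((T0 ⊓ 𝐂[t]).map ι ⊓ X) X := by
    refine Syl.inf_of_nrm (C.sylS.of_le ?_ inf_le_left) Xn
    refine le_inf C.sylS.le fun g hg => mem_normalizer_fintype fun v hv => ?_
    rw [← SN] at hv ⊢
    exact ⟨mul_mem (mul_mem hg hv.1) (Subgroup.inv_mem _ hg), Nc g (C.sylS.le hg) v hv.2⟩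
  have key : ∀ x ∈ X, x * x ∈ V0.map ι → x ∉ V0.map ι → ∃ c ∈ X, c⁻¹ * x * c ∈ G0 ∧
      ∃ v ∈ V0.map ι, IsConj (ι z) (x * v) := by
    intro x hx h2 h1
    have x4 : x ^ 2 ^ 2 = 1 := by
      obtain ⟨a, ha, e⟩ := h2
      calc _ = x * x * (x * x) := by
            rw [show 2 ^ 2 = 4 from rfl]; simp only [pow_succ, pow_zero, one_mul, mul_assoc]
        _ = 1 := by rw [← e, ← map_mul, (f4 a (inV_mem ha)).1, map_one]
    obtain ⟨g, hg, h3⟩ := sy.exists_cj_le (isPGroup_zpowers (k := 2) x4) (zpowers_le.2 hx)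
    obtain ⟨⟨y, hy, e⟩, hyX⟩ := h3 (conj_mem_cj (mem_zpowers x))
    refine ⟨g⁻¹, inv_mem hg, by rw [inv_inv, ← e]; exact C.hH _, ?_⟩
    have tr : ∀ v ∈ V0, Dc (y * v) → ∃ v ∈ V0.map ι, IsConj (ι z) (x * v) := fun v hv h =>
      ⟨ι v, mem_map_of_mem ι hv, (C.ofDc (mul_mem hy.1 (f4 v (inV_mem hv)).2.2.2.1) h).trans (by
        have : ι (y * v) = g * (x * ι v) * g⁻¹ := by
          rw [map_mul, e, mul_assoc (g * x), cV _ (inv_mem hg) _ (mem_map_of_mem ι hv)]; group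
        rw [this]
        exact (isConj_cj g _).symm)⟩
    rw [← e] at hyX
    rcases quoV y hy.1 (mem_cent1_iff.1 hy.2) (C.H.comm (mem_cent1_iff.1 hyX.2))
      ((C.H.mem_map (K := V0)).1 (by
        rwa [map_mul, e, conj_mul, cV g hg _ h2, mul_inv_cancel_right])) with h | h | h | h | h
    · refine absurd ?_ h1
      have h4 := mem_map_of_mem ι (show y ∈ V0 from h)
      have h5 := cV _ (inv_mem hg) _ h4
      have : x = ι y := by
        calc x = g⁻¹ * ι y * g := by rw [e]; group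
          _ = _ := by rw [h5]; group
      rwa [this]
    · exact tr 1 (one_mem _) (by simpa using h)
    · exact tr t (Or.inr (Or.inl rfl)) h
    · exact tr t1 (Or.inr (Or.inr (Or.inl rfl))) h
    · exact tr _ (Or.inr (Or.inr (Or.inr rfl))) h
  haveI : ((V0.map ι).subgroupOf X).Normal := ⟨fun v hv g => by
    change (g : G) * v * (g : G)⁻¹ ∈ V0.map ι
    rwa [cV g g.2 v hv, mul_inv_cancel_right]⟩
  obtain ⟨-, a1, b1, ab, ww, na, nb, nw, aw, naw⟩ := f3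
  have fa := f2 x13 (by simp)
  have fb := f2 x34 (by simp)
  have mX : ∀ y, y * t = t * y → y * t1 = t1 * y → ι y ∈ X := fun y h1 h2 =>
    ⟨mem_cent1_iff.2 (by rw [← map_mul, h1, map_mul]),
      mem_cent1_iff.2 (by rw [← map_mul, h2, map_mul])⟩
  have aX := mX x13 fa.2.1 a1
  have bX := mX x34 fb.2.1 b1
  have wX : ι x14 ∈ X := by
    rw [← ab, map_mul, map_mul]; exact mul_mem (mul_mem aX bX) (mul_mem aX bX)
  refine endgame ((V0.map ι).subgroupOf X) (G0.subgroupOf X) (fun v hv => NG (VN hv))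
    (fun h => XG (subgroupOf_eq_top.1 h)) (fun x h2 h1 => ?_) (fun x h2 h1 hx c hc => ?_)
    (a := ⟨_, aX⟩) (b := ⟨_, bX⟩) (w := ⟨_, wX⟩) (C.hH _) (C.hH _)
    (Subtype.ext (by simp [← ab])) (Subtype.ext (by simp [← map_mul, fa.2.2]))
    (Subtype.ext (by simp [← map_mul, fb.2.2])) (Subtype.ext (by simp [← map_mul, ww]))
    (fun h => na (C.H.mem_map.1 h)) (fun h => nb (C.H.mem_map.1 h))
    (fun h => nw (C.H.mem_map.1 h)) (Subtype.ext (by simp [← map_mul, aw])) fun h => naw ?_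
  · obtain ⟨c, hc, h, -⟩ := key x x.2 h2 h1
    exact ⟨⟨c, hc⟩, h⟩
  · obtain ⟨-, -, -, v, hv, h⟩ := key x x.2 h2 h1
    refine C.uniq h (mul_mem hx (NG (VN hv))) ?_
    have := mul_mem (show (c : G)⁻¹ * x * c ∈ G0 from hc) (NG (VN hv))
    rwa [mul_assoc _ _ v, cV c c.2 v hv, ← mul_assoc, mul_assoc _ _ v] at this
  · refine (C.H.mem_map (K := V0)).1 ?_
    have : (ι x13)⁻¹ * ι x14 ∈ V0.map ι := h
    rwa [← map_inv, inv_eq_of_mul_eq_one_right fa.2.2, ← map_mul] at this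

end Cx

theorem top_of {G : Type*} [Group G] [Finite G] {ι : HC →* G} (H : Hs ι) (G0 : Subgroup G)
    (hH : ∀ h, ι h ∈ G0) (hnt : ¬ IsConj (ι z) (ι t))
    (hD : ∀ k, k = 1 ∨ k = 2 ∨ k = 4 → ∃ g ∈ G0, g * ι z * g⁻¹ = ι (rp k))
    (h5 : ∃ g ∈ G0, g * ι t * g⁻¹ = ι (rp 5))
    (h67 : ∀ k, k = 6 ∨ k = 7 →
      ∃ g ∈ G0, g * ι z * g⁻¹ = ι (rp k) ∨ g * ι t * g⁻¹ = ι (rp k)) : G0 = ⊤ := by
  have C : Cx ι G0 := ⟨H, hH, hnt, hD, h5, h67⟩
  by_cases h : 𝐂[ι t] ≤ G0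
  · exact C.caseA fun g hg => h (mem_cent1_iff.2 hg)
  · exact (C.caseB h).elim

end Cfsg.Agent.H9.HeG
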