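/-
Subgroups of `M24` of given order: Sylow counting, orbit analysis over a Sylow 2-subgroup.
-/
import Cfsg.Agent.H4.Cover

set_option autoImplicit false
set_option maxRecDepth 100000

open MulAction
open scoped Pointwise

namespace Cfsg.Agent.H9.MI

open Cfsg.Agent.H4

/-! ### Sylow counting -/

section Sylow

variable {G : Type*} [Group G]

/-- The normaliser in `K` of the group generated by `x`. -/
def nz (K : Subgroup G) (x : G) : Subgroup G :=
  K ⊓ Subgroup.normalizer (Subgroup.zpowers x : Set G)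

theorem nz_mono {K K' : Subgroup G} (h : K ≤ K') (x : G) : nz K x ≤ nz K' x :=
  inf_le_inf_right _ h

theorem nz_dvd {K K' : Subgroup G} (h : K ≤ K') (x : G) : Nat.card (nz K x) ∣ Nat.card (nz K' x) :=
  Subgroup.card_dvd_of_le (nz_mono h x)

theorem mem_nz [Finite G] {K : Subgroup G} {x g : G} (hg : g ∈ K) {k : ℕ} (h : g * x * g⁻¹ = x ^ k) :
    g ∈ nz K x := by
  refine ⟨hg, Subgroup.mem_normalizer_fintype ?_⟩
  rintro _ ⟨n, rfl⟩
  show g * x ^ n * g⁻¹ ∈ Subgroup.zpowers x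
  rw [← conj_zpow, h]
  exact Subgroup.zpow_mem _ (Subgroup.pow_mem _ (Subgroup.mem_zpowers x) k) n

theorem nz_count [Finite G] {K : Subgroup G} {x : G} (hx : x ∈ K) {p : ℕ} (hp : p.Prime)
    (ho : orderOf x = p) (h2 : ¬ p * p ∣ Nat.card K) :
    p ∣ Nat.card (nz K x) ∧ Nat.card (nz K x) ∣ Nat.card K ∧
      Nat.card K / Nat.card (nz K x) % p = 1 := by
  have := Fact.mk hp
  have hle : Subgroup.zpowers x ≤ K := (Subgroup.zpowers_le).mpr hx
  have hc : Nat.card ((Subgroup.zpowers x).subgroupOf K) = p := by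
    rw [Nat.card_congr (Subgroup.subgroupOfEquivOfLe hle).toEquiv, Nat.card_zpowers, ho]
  have hi := ((Subgroup.zpowers x).subgroupOf K).card_mul_index
  let P : Sylow p K := IsPGroup.toSylow (P := (Subgroup.zpowers x).subgroupOf K)
    (IsPGroup.of_card (n := 1) (by rw [hc, pow_one])) fun h => h2 (by
      rw [← hi, hc]; exact Nat.mul_dvd_mul_left p h)
  have h1 := P.card_eq_index_normalizer
  have h3 : Subgroup.normalizer (P : Set K) = (nz K x).subgroupOf K := by
    rw [nz, Subgroup.inf_subgroupOf_left, Subgroup.subgroupOf_normalizer_eq hle]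
    rfl
  have h4 : Nat.card ((nz K x).subgroupOf K) = Nat.card (nz K x) :=
    Nat.card_congr (Subgroup.subgroupOfEquivOfLe inf_le_left).toEquiv
  have h5 := ((nz K x).subgroupOf K).card_mul_index
  rw [h4, ← h3, ← h1] at h5
  refine ⟨?_, Dvd.intro _ h5, ?_⟩
  · rw [← ho, ← Nat.card_zpowers]
    exact Subgroup.card_dvd_of_le (le_inf hle Subgroup.le_normalizer)
  · rw [← h5, Nat.mul_div_cancel_left _ Nat.card_pos]
    exact Eq.trans (card_sylow_modEq_one p K) (Nat.mod_eq_of_lt hp.one_lt)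

/-- The check that only the values in `l` are possible. -/
def nzChk (p N D : ℕ) (l : List ℕ) : Bool :=
  band (band (Nat.blt 0 D) (bnot (Nat.beq (N % (p * p)) 0))) (allLt (D + 1) fun c =>
    bimp (band (Nat.beq (D % c) 0) (band (Nat.beq (c % p) 0) (band (Nat.beq (N % c) 0)
      (Nat.beq (N / c % p) 1)))) (memL l c))

theorem nz_mem [Finite G] {K : Subgroup G} {x : G} (hx : x ∈ K) {p : ℕ} (hp : p.Prime)
    (ho : orderOf x = p) {N D : ℕ} (hN : Nat.card K = N) (hD : Nat.card (nz K x) ∣ D) (l : List ℕ)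
    (h : nzChk p N D l = true) : Nat.card (nz K x) ∈ l := by
  simp only [nzChk, band_eq, bnot_eq, Bool.and_eq_true, Nat.blt_eq, Bool.not_eq_true',
    allLt_iff, bimp_iff, Nat.beq_eq, memL_iff] at h
  obtain ⟨⟨h0, h1⟩, h2⟩ := h
  obtain ⟨h3, h4, h5⟩ := nz_count hx hp ho (fun h => by
    rw [hN] at h
    rw [Nat.mod_eq_zero_of_dvd h] at h1
    exact Bool.noConfusion h1)
  rw [hN] at h4 h5
  exact h2 _ (Nat.lt_succ_of_le (Nat.le_of_dvd h0 hD))
    ⟨Nat.mod_eq_zero_of_dvd hD, Nat.mod_eq_zero_of_dvd h3, Nat.mod_eq_zero_of_dvd h4, h5⟩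

theorem exists_orderOf [Finite G] (K : Subgroup G) {p : ℕ} (hp : p.Prime) (h : p ∣ Nat.card K) :
    ∃ x ∈ K, orderOf x = p := by
  have := Fact.mk hp
  obtain ⟨x, hx⟩ := exists_prime_orderOf_dvd_card' p h
  exact ⟨x, x.2, by rw [Subgroup.orderOf_coe, hx]⟩

theorem exists_conj_le' [Finite G] {p : ℕ} (hp : p.Prime) {A K X : Subgroup G} (hK : K ≤ A)
    (hX : X ≤ A) {a m k : ℕ} (h1 : Nat.card K = a) (h2 : Nat.card A = m * a) (h3 : ¬ p ∣ m)
    (h4 : Nat.card X = p ^ k) : ∃ g ∈ A, X ≤ MulAut.conj g • K := by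
  obtain ⟨g, hg⟩ := exists_conj_le hp (K.subgroupOf A) (X.subgroupOf A) (by
    rwa [index_eq_of_card (K.subgroupOf A) (h1 ▸ Nat.card_pos)
      ((Nat.card_congr (Subgroup.subgroupOfEquivOfLe hK).toEquiv).trans h1) h2])
    (IsPGroup.of_card ((Nat.card_congr (Subgroup.subgroupOfEquivOfLe hX).toEquiv).trans h4))
  refine ⟨(g : G)⁻¹, A.inv_mem g.2, fun x hx => ?_⟩
  rw [mem_conj_smul, inv_inv]
  exact hg ⟨x, hX hx⟩ hx

theorem conj_smul_le {A K : Subgroup G} {g : G} (hK : K ≤ A) (hg : g ∈ A) :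
    MulAut.conj g • K ≤ A := fun x hx => by
  have := A.mul_mem (A.mul_mem hg (hK ((mem_conj_smul g x K).mp hx))) (A.inv_mem hg)
  simpa [mul_assoc] using this

theorem conj_smul_le_stab {X : Type*} [MulAction G X] {K : Subgroup G} {g : G} {x : X}
    (hK : K ≤ stabilizer G x) : MulAut.conj g • K ≤ stabilizer G (g • x) := fun y hy => by
  have := hK ((mem_conj_smul g y K).mp hy)
  rw [mem_stabilizer_iff, mul_smul, mul_smul, inv_smul_eq_iff] at this
  exact this

theorem le_stab_of_conj {X : Type*} [MulAction G X] {K : Subgroup G} {g : G} {x : X}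
    (hK : MulAut.conj g • K ≤ stabilizer G x) : K ≤ stabilizer G (g⁻¹ • x) := fun y hy => by
  have := hK ((mem_conj_smul g (g * y * g⁻¹) K).mpr (by simpa [mul_assoc] using hy))
  rw [mem_stabilizer_iff, mul_smul, mul_smul, ← eq_inv_smul_iff] at this
  exact this

end Sylow

/-! ### Configuration stabilisers -/

/-- The elements of `M24` fixing the points in `l` and the sets in `ms`. -/
def cf (l ms : List ℕ) : Subgroup M24 := (cfg l ms).subgroupOf M24

theorem mem_cf {l ms : List ℕ} {g : M24} : g ∈ cf l ms ↔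
    (∀ i ∈ l, g • gE.pt i = gE.pt i) ∧ ∀ m ∈ ms, g • gE.ofMask m = gE.ofMask m :=
  ⟨fun h => h.2, fun h => ⟨g.2, h⟩⟩

theorem card_cf (l ms : List ℕ) : Nat.card (cf l ms) = Nat.card (cfg l ms) :=
  Nat.card_congr (Subgroup.subgroupOfEquivOfLe (cfg_le l ms)).toEquiv

theorem cf_nil : cf [] [] = ⊤ := by
  rw [eq_top_iff]; exact fun g _ => mem_cf.mpr ⟨by simp, by simp⟩

theorem cf_cons (b : ℕ) (l ms : List ℕ) :
    cf (b :: l) ms = cf l ms ⊓ stabilizer M24 (gE.pt b) := by
  ext g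
  simp only [mem_cf, Subgroup.mem_inf, mem_stabilizer_iff, List.forall_mem_cons]
  tauto

theorem cf_cons' (m : ℕ) (l ms : List ℕ) :
    cf l (m :: ms) = cf l ms ⊓ stabilizer M24 (gE.ofMask m) := by
  ext g
  simp only [mem_cf, Subgroup.mem_inf, mem_stabilizer_iff, List.forall_mem_cons]
  tauto

theorem le_cf_cons {H : Subgroup M24} {m : ℕ} {l ms : List ℕ} (h : H ≤ cf l ms)
    (h' : H ≤ stabilizer M24 (gE.ofMask m)) : H ≤ cf l (m :: ms) := by
  rw [cf_cons']; exact le_inf h h'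

theorem in_cf {l ms gens : List ℕ} (h : allL gens (memCfg l ms) = true) : kcg.In (cf l ms) gens :=
  fun c hc => sound_of_le_cfg (H := cf l ms) (fun _ hg => hg) c (allL_iff.mp h c hc)

theorem In.mono {H K : Subgroup M24} {l : List ℕ} (h : kcg.In H l) (hK : H ≤ K) : kcg.In K l :=
  fun c hc => by obtain ⟨g, hg, h1⟩ := h c hc; exact ⟨g, hK hg, h1⟩

theorem In.append {H : Subgroup M24} {l l' : List ℕ} (h : kcg.In H l) (h' : kcg.In H l') :
    kcg.In H (l ++ l') := fun c hc => (List.mem_append.mp hc).elim (h c) (h' c)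

theorem smul_mem_iff_of {g : M24} {s : Finset GolayPt} (h : g • s = s) (a : GolayPt) :
    g • a ∈ s ↔ a ∈ s := by
  conv_lhs => rw [← h]
  exact Finset.smul_mem_smul_finset_iff g

theorem smul_eq_of_iff {g : M24} {s : Finset GolayPt} (h : ∀ a, a ∈ s → g • a ∈ s) : g • s = s :=
  Finset.eq_of_subset_of_card_le (fun _ hx => by
    obtain ⟨a, ha, rfl⟩ := Finset.mem_smul_finset.mp hx; exact h a ha)
    (Finset.card_smul_finset g s).ge

/-- The set `m` is a union of atoms of the configuration. -/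
def meas (l ms : List ℕ) (m : ℕ) : Bool :=
  allLt 24 fun x => bimp (tb m x) (bor (memL l x) (allLt 24 fun y =>
    bor (tb m y) (bor (memL l y) (anyL ms fun s => bnot (Nat.beq (bit s x) (bit s y))))))

theorem cf_le_stab {l ms : List ℕ} {m : ℕ} (h : meas l ms m = true) :
    cf l ms ≤ stabilizer M24 (gE.ofMask m) := fun g hg => smul_eq_of_iff fun a ha => by
  obtain ⟨h1, h2⟩ := mem_cf.mp hg
  have h3 := (bimp_iff _ _).mp (allLt_iff.mp h _ (gE.ix_lt a)) ((gE.mem_ofMask_tb m a).mp ha)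
  rw [bor_eq, Bool.or_eq_true, memL_iff, allLt_iff] at h3
  rcases h3 with h3 | h3
  · have := h1 _ h3
    rw [gE.pt_ix] at this
    rwa [this]
  have h4 := h3 _ (gE.ix_lt (g • a))
  simp only [bor_eq, Bool.or_eq_true, memL_iff, anyL_iff, bnot_eq, Bool.not_eq_true'] at h4
  rcases h4 with h4 | h4 | ⟨s, hs, h4⟩
  · exact (gE.mem_ofMask_tb m _).mpr h4
  · have := h1 _ h4
    rw [gE.pt_ix, smul_left_cancel_iff] at this
    rwa [this]
  · have h5 := smul_mem_iff_of (h2 s hs) a
    rw [gE.mem_ofMask, gE.mem_ofMask, Bool.coe_iff_coe] at h5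
    rw [bit_eq, bit_eq, h5, Nat.beq_refl] at h4
    exact Bool.noConfusion h4

/-- The check for an inclusion of configuration stabilisers. -/
def leChk (l ms l' ms' : List ℕ) : Bool :=
  band (allL l' fun i => band (Nat.blt i 24) (meas l ms (2 ^ i))) (allL ms' (meas l ms))

theorem cf_le_cf {l ms l' ms' : List ℕ} (h : leChk l ms l' ms' = true) : cf l ms ≤ cf l' ms' := by
  simp only [leChk, band_eq, Bool.and_eq_true, allL_iff, Nat.blt_eq] at h
  refine fun g hg => mem_cf.mpr ⟨fun i hi => ?_, fun m hm => cf_le_stab (h.2 m hm) hg⟩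
  have := cf_le_stab (h.1 i hi).2 hg
  rwa [mem_stabilizer_iff, gE.ofMask_two_pow (h.1 i hi).1, Finset.smul_finset_singleton,
    Finset.singleton_inj] at this

theorem cf_le_o0 {l ms : List ℕ} (s : ℕ)
    (h : band (meas l ms s) (band (Nat.ble 5 (pc 24 s)) (Nat.beq (s &&& o0) s)) = true) :
    cf l ms ≤ stabilizer M24 (gE.ofMask o0) := fun g hg => by
  simp only [band_eq, Bool.and_eq_true, Nat.ble_eq, Nat.beq_eq] at h
  have h1 : g • gE.ofMask s = gE.ofMask s := cf_le_stab h.1 hg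
  have h2 := gE.ofMask_subset_of_land h.2.2
  refine octad_unique_of_five (s := gE.ofMask s) (by rw [gE.card_ofMask]; exact h.2.1)
    (smul_mem_octads g.2 o0_mem) o0_mem ?_ h2
  rw [← h1]
  exact Finset.smul_finset_subset_smul_finset h2

/-- The check for an upper bound along steps (point, invariant set). -/
def ubChk (ms : List ℕ) (st : List (ℕ × ℕ)) : List ℕ → Bool :=
  List.rec (fun _ => true) (fun s _ ih l =>
    band (band (Nat.blt s.1 24) (band (tb s.2 s.1) (meas l ms s.2))) (ih (s.1 :: l))) st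

theorem card_cf_le {ms : List ℕ} (st : List (ℕ × ℕ)) {l : List ℕ} (h : ubChk ms st l = true) :
    Nat.card (cf l ms) ≤ (st.map fun s => pc 24 s.2).prod *
      Nat.card (cf ((st.map Prod.fst).reverse ++ l) ms) := by
  induction st generalizing l with
  | nil => simp
  | cons s st ih =>
    have h1 : band (band (Nat.blt s.1 24) (band (tb s.2 s.1) (meas l ms s.2)))
      (ubChk ms st (s.1 :: l)) = true := h
    simp only [band_eq, Bool.and_eq_true, Nat.blt_eq] at h1
    obtain ⟨⟨h2, h3, h4⟩, h5⟩ := h1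
    have h6 := card_le_of_orbit_subset (cf l ms) (gE.pt s.1) (gE.ofMask s.2) (Set.toFinite _)
      fun g hg => (smul_mem_iff_of (cf_le_stab h4 hg) _).mpr ((pt_mem_ofMask_tb _ h2).mpr h3)
    rw [Set.ncard_coe_finset, gE.card_ofMask, ← cf_cons] at h6
    refine h6.trans ?_
    rw [List.map_cons, List.prod_cons, mul_assoc, List.map_cons, List.reverse_cons,
      List.append_assoc]
    exact Nat.mul_le_mul_left _ (ih h5)

theorem card_cf_le' {l ms : List ℕ} (st : List (ℕ × ℕ)) {l' : List ℕ} {n N : ℕ}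
    (hn : Nat.card (cfg l' []) = n)
    (h : band (band (ubChk ms st l) (leChk ((st.map Prod.fst).reverse ++ l) ms l' []))
      (Nat.ble ((st.map fun s => pc 24 s.2).prod * n) N) = true) : Nat.card (cf l ms) ≤ N := by
  simp only [band_eq, Bool.and_eq_true, Nat.ble_eq] at h
  refine (card_cf_le st h.1.1).trans (le_trans (Nat.mul_le_mul_left _ ?_) h.2)
  rw [← hn, ← card_cf]
  exact Subgroup.card_le_of_le (cf_le_cf h.1.2)

/-! ### Fixed points and normalisers of elements of prime order -/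

theorem card_fix_le {u : M24} {p : ℕ} (ho : orderOf u = p) (hp : ¬ p ∣ 960) (F : Finset GolayPt)
    (hF : ∀ x ∈ F, u • x = x) : F.card ≤ 3 := by
  by_contra h
  obtain ⟨t, ht, hc⟩ := Finset.exists_subset_card_eq (show 4 ≤ F.card by omega)
  obtain ⟨a, b, c, d, h1, h2, h3, h4, h5, h6, rfl⟩ := card_eq_four' hc
  obtain ⟨g, hg, e1, e2, e3, e4⟩ := trans4 h1 h2 h3 h4 h5 h6
  have key : ∀ x ∈ F, (g * (u : Equiv.Perm GolayPt) * g⁻¹) (g x) = g x := fun x hx => by
    have : (u : Equiv.Perm GolayPt) x = x := hF x hx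
    simp [this]
  have h7 : g * (u : Equiv.Perm GolayPt) * g⁻¹ ∈ cfg [2, 1, 0, 23] [] := by
    refine ⟨M24.mul_mem (M24.mul_mem hg u.2) (M24.inv_mem hg), fun i hi => ?_, by simp⟩
    simp only [List.mem_cons, List.not_mem_nil, or_false] at hi
    rcases hi with rfl | rfl | rfl | rfl
    · rw [← e4]; exact key d (ht (by simp))
    · rw [← e3]; exact key c (ht (by simp))
    · rw [← e2]; exact key b (ht (by simp))
    · rw [← e1]; exact key a (ht (by simp))
  have h8 := Subgroup.orderOf_dvd_natCard _ h7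
  rw [card_cfg4, ← MulAut.conj_apply, MulEquiv.orderOf_eq, Subgroup.orderOf_coe, ho] at h8
  exact hp h8

theorem card_mod_le {H : Subgroup M24} {p : ℕ} (hp : p.Prime) (hp' : ¬ p ∣ 960)
    (h : p ∣ Nat.card H) {s : Finset GolayPt} (hs : H ≤ stabilizer M24 s) : s.card % p ≤ 3 := by
  have := Fact.mk hp
  obtain ⟨u, hu, ho⟩ := exists_orderOf H hp h
  have h1 : ∀ x, (u : Equiv.Perm GolayPt) x ∈ s ↔ x ∈ s := smul_mem_iff_of (hs hu)
  have h2 : ((u : Equiv.Perm GolayPt).subtypePerm h1) ^ p ^ 1 = 1 := by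
    rw [Equiv.Perm.subtypePerm_pow]
    ext x
    simp only [pow_one, Equiv.Perm.subtypePerm_apply, Equiv.Perm.coe_one, id_eq]
    rw [← Subgroup.coe_pow, ← ho, pow_orderOf_eq_one]
    rfl
  have h3 := Equiv.Perm.card_compl_support_modEq h2
  rw [Fintype.card_coe] at h3
  have h4 := card_fix_le ho hp'
    (((u : Equiv.Perm GolayPt).subtypePerm h1).supportᶜ.map (Function.Embedding.subtype _))
    (fun x hx => by
      obtain ⟨y, hy, rfl⟩ := Finset.mem_map.mp hx
      rw [Finset.mem_compl, Equiv.Perm.notMem_support] at hy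
      exact congrArg Subtype.val hy)
  rw [Finset.card_map] at h4
  rw [← h3]
  exact (Nat.mod_le _ _).trans h4

theorem nz_top_dvd {u : M24} {p : ℕ} (hp : p.Prime) (ho : orderOf u = p) (hp' : ¬ p ∣ 960) {k : ℕ}
    (hk : ∀ j, j * p ≤ 24 → 21 ≤ j * p → j = k) :
    Nat.card (nz ⊤ u) ∣ (p - 1) * ((24 - k * p).factorial * p ^ k * k.factorial) := by
  have h1 := card_normalizer_dvd M24.subtype Subtype.val_injective hp (Subgroup.zpowers u)
    (by rw [Nat.card_zpowers, ho]) (Subgroup.mem_zpowers u)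
  have ho' : orderOf (u : Equiv.Perm GolayPt) = p := by rw [Subgroup.orderOf_coe, ho]
  obtain ⟨n, hn⟩ := Equiv.Perm.cycleType_prime_order (ho' ▸ hp)
  have h2 := Equiv.Perm.sum_cycleType (u : Equiv.Perm GolayPt)
  have h3 := card_fix_le ho hp' (u : Equiv.Perm GolayPt).supportᶜ fun x hx =>
    Equiv.Perm.notMem_support.mp (Finset.mem_compl.mp hx)
  have h4 := Finset.card_le_univ (u : Equiv.Perm GolayPt).support
  rw [Finset.card_compl, card_golayPt] at h3
  rw [card_golayPt] at h4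
  rw [hn, ho', Multiset.sum_replicate, smul_eq_mul] at h2
  obtain rfl := hk (n + 1) (by omega) (by omega)
  rw [Subgroup.coe_subtype, Equiv.Perm.nat_card_centralizer, hn, ho', card_golayPt,
    Multiset.sum_replicate, Multiset.prod_replicate, Multiset.toFinset_replicate,
    if_neg (Nat.succ_ne_zero n), Finset.prod_singleton, Multiset.count_replicate_self] at h1
  rwa [nz, top_inf_eq]

theorem card_top : Nat.card (⊤ : Subgroup M24) = 244823040 := by rw [Subgroup.card_top, card_M24]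

theorem nz7 {u : M24} (ho : orderOf u = 7) : Nat.card (nz ⊤ u) ∣ 252 := by
  have h1 := nz_top_dvd (by norm_num) ho (by norm_num) (k := 3) (by omega)
  have h2 := Nat.dvd_gcd h1 (card_top ▸ Subgroup.card_dvd_of_le (H := nz ⊤ u) le_top)
  have h3 := nz_mem (Subgroup.mem_top u) (by norm_num) ho card_top h2 [28, 126] (by decide +kernel)
  simp only [List.mem_cons, List.not_mem_nil, or_false] at h3
  rcases h3 with h3 | h3 <;> rw [h3] <;> norm_num

theorem nz11 {u : M24} (ho : orderOf u = 11) : Nat.card (nz ⊤ u) = 110 := by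
  have h1 := nz_top_dvd (by norm_num) ho (by norm_num) (k := 2) (by omega)
  simpa using nz_mem (Subgroup.mem_top u) (by norm_num) ho card_top h1 [110] (by decide +kernel)

theorem nz23 {u : M24} (ho : orderOf u = 23) : Nat.card (nz ⊤ u) = 253 := by
  have h1 := nz_top_dvd (by norm_num) ho (by norm_num) (k := 1) (by omega)
  simpa using nz_mem (Subgroup.mem_top u) (by norm_num) ho card_top h1 [253] (by decide +kernel)

/-! ### Orbit analysis -/

/-- All unions of the masks in a list. -/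
def unions (l : List ℕ) : List ℕ :=
  List.rec [0] (fun a _ ih => ih ++ ih.map fun x => x ||| a) l

/-- The union of the masks in a list. -/
def unionAll (l : List ℕ) : ℕ := List.rec 0 (fun a _ ih => ih ||| a) l

theorem exists_union (s : Finset GolayPt) (l : List ℕ)
    (h : ∀ m ∈ l, gE.ofMask m ⊆ s ∨ Disjoint (gE.ofMask m) s) :
    ∃ m ∈ unions l, gE.ofMask m = s ∩ gE.ofMask (unionAll l) := by
  induction l with
  | nil => exact ⟨0, List.mem_singleton_self _, by simp [unionAll]⟩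
  | cons a l ih =>
    obtain ⟨m, hm, h1⟩ := ih fun m hm => h m (List.mem_cons_of_mem _ hm)
    have h2 : gE.ofMask (unionAll (a :: l)) = gE.ofMask (unionAll l) ∪ gE.ofMask a :=
      gE.ofMask_lor _ _
    rw [h2, Finset.inter_union_distrib_left, ← h1]
    rcases h a List.mem_cons_self with h3 | h3
    · exact ⟨m ||| a, List.mem_append_right _ (List.mem_map_of_mem hm), by
        rw [gE.ofMask_lor, Finset.inter_eq_right.mpr h3]⟩
    · exact ⟨m, List.mem_append_left _ hm, by
        rw [Finset.disjoint_iff_inter_eq_empty.mp h3.symm, Finset.union_empty]⟩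

/-- The check for the orbit analysis: `M` is an invariant set containing `b`. -/
def orbChk (gens reps : List ℕ) (N : ℕ) (l ms : List ℕ) (b M : ℕ) (res : List ℕ) : Bool :=
  band (band (band (Nat.blt b 24) (band (tb M b) (meas l ms M)))
    (Nat.beq (unionAll (reps.map (orbM 24 5 gens 12))) 0xffffff))
    (allL (unions (reps.map (orbM 24 5 gens 12))) fun m =>
      band (Nat.blt m 16777216) (bimp (band (tb m b) (band (Nat.beq (m &&& M) m)
        (band (Nat.beq (N % pc 24 m) 0) (bimp (Nat.beq (N % 7) 0) (Nat.ble (pc 24 m % 7) 3)))))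
        (memL res m)))

theorem orbit_cases {H : Subgroup M24} {gens : List ℕ} (hg : kcg.In H gens) {N : ℕ}
    (hN : Nat.card H = N) {l ms : List ℕ} (hH : H ≤ cf l ms) (reps : List ℕ) (b M : ℕ)
    (res : List ℕ) (h : orbChk gens reps N l ms b M res = true) :
    ∃ m ∈ res, H ≤ cf l (m :: ms) ∧
      pc 24 m * Nat.card ↥(H ⊓ stabilizer M24 (gE.pt b)) = N := by
  classical
  simp only [orbChk, band_eq, Bool.and_eq_true, Nat.blt_eq, Nat.beq_eq, allL_iff, bimp_iff,
    Nat.ble_eq, memL_iff] at h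
  obtain ⟨⟨⟨h1, h2, h3⟩, h4⟩, h5⟩ := h
  let s : Finset GolayPt := Finset.univ.filter fun a => ∃ g ∈ H, g • gE.pt b = a
  have hs : ∀ a, a ∈ s ↔ ∃ g ∈ H, g • gE.pt b = a := fun a => by simp [s]
  have hst : H ≤ stabilizer M24 s := fun g hg => smul_eq_of_iff fun a ha => by
    obtain ⟨k, hk, rfl⟩ := (hs a).mp ha
    exact (hs _).mpr ⟨g * k, H.mul_mem hg hk, mul_smul _ _ _⟩
  obtain ⟨m, hm, h6⟩ := exists_union s (reps.map (orbM 24 5 gens 12)) fun m hm => by
    obtain ⟨r, -, rfl⟩ := List.mem_map.mp hm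
    have h6 := Enc.orbM_sound (E := gE) (K := H) hg 12 (b := r)
    by_cases h7 : gE.pt r ∈ s
    · refine Or.inl fun a ha => ?_
      obtain ⟨g, hg, rfl⟩ := h6 a ((gE.mem_ofMask _ a).mp ha)
      exact (smul_mem_iff_of (hst hg) _).mpr h7
    · refine Or.inr (Finset.disjoint_left.mpr fun a ha h8 => h7 ?_)
      obtain ⟨g, hg, rfl⟩ := h6 a ((gE.mem_ofMask _ a).mp ha)
      exact (smul_mem_iff_of (hst hg) _).mp h8
  rw [h4, show (0xffffff : ℕ) = 2 ^ 24 - 1 from rfl, gE.ofMask_full, Finset.inter_univ] at h6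
  have h7 := card_eq_of_orbit_eq H (gE.pt b) s (fun g hg => (hs _).mpr ⟨g, hg, rfl⟩)
    fun y hy => (hs y).mp hy
  rw [Set.ncard_coe_finset, ← h6, gE.card_ofMask, hN] at h7
  have h8 : m < 2 ^ 24 := (h5 m hm).1
  refine ⟨m, (h5 m hm).2 ⟨?_, ?_, ?_, fun h9 => ?_⟩, le_cf_cons hH (h6 ▸ hst), h7.symm⟩
  · rw [← pt_mem_ofMask_tb _ h1, h6]
    exact (hs _).mpr ⟨1, H.one_mem, one_smul _ _⟩
  · rw [← gE.ofMask_subset_iff h8, h6]
    intro a ha
    obtain ⟨g, hg, rfl⟩ := (hs a).mp ha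
    exact (smul_mem_iff_of (cf_le_stab h3 (hH hg)) _).mpr ((pt_mem_ofMask_tb _ h1).mpr h2)
  · rw [h7]; exact Nat.mul_mod_right _ _
  · rw [← gE.card_ofMask, h6]
    exact card_mod_le (by norm_num) (by norm_num) (hN ▸ Nat.dvd_of_mod_eq_zero h9) hst

/-! ### Subgroups from straight-line programs -/

theorem dvd_card_of {H : Subgroup M24} {l : List ℕ} (hl : kcg.In H l) (prog : List (ℕ × ℕ))
    (L : List (CG.Level ℕ)) (n : ℕ)
    (h : band (kcg.slpCheck l prog (CG.gensOf L)) (kcg.ordCheck isM24 L n) = true) :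
    n ∣ Nat.card H := by
  rw [band_eq, Bool.and_eq_true] at h
  rw [← (CG.ordCheck_spec kcg_keyed kcg_uniq mcg_vt rfl h.2).2.2.2]
  exact Subgroup.card_dvd_of_le (CG.gen_le_of_slp rfl hl h.1)

theorem dvd_card_of_ord {H : Subgroup M24} {l : List ℕ} (hl : kcg.In H l) (prog : List (ℕ × ℕ))
    (n : ℕ) (hn : n ≠ 0) (h : Nat.beq (kcg.ord n (getL kcg.one (kcg.slp prog l) 0)) n = true) :
    n ∣ Nat.card H := by
  obtain ⟨g, hg, h1⟩ := (hl.slp kcg prog).getL kcg 0
  rw [← kcg_complete.ord_eq rfl h1 hn h]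
  exact Subgroup.orderOf_dvd_natCard _ hg

/-! ### A Sylow 2-subgroup -/

/-- A chain for a Sylow 2-subgroup of `M23`. -/
def LT' : List (CG.Level ℕ) :=
  [(0, [0xbb4f2abc70616d45216934e2470801],
     [(0, 0)]),
   (3, [0xbbd16955c924547341b35b07428820, 0xba5965cc6f216863c1b5921ca88820],
     [(0, 0), (1, 1), (1, 1)]),
   (4, [0xbc92655a2c3b9706cea47d0a818820, 0xb9e086be3593a6952d94b10a618820, 0xbcc8cb2a265b8f47c9096c0b518820, 0xbb1f3a4232ab916218ed4a8ab18820],
     [(0, 0), (1, 1), (2, 2), (3, 3), (1, 3), (2, 4), (3, 5), (2, 5), (3, 6), (3, 6), (2, 5), (3, 6), (3, 6), (3, 5), (3, 3)])]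

/-- A chain for a Sylow 2-subgroup of `M24`. -/
def LT : List (CG.Level ℕ) :=
  (23, [0x754886d013584cf4c98ab4047bc465],
     [(0, 0), (0, 0), (1, 1), (2, 2), (0, 2), (1, 3), (0, 3)]) :: LT'

/-- Generators of the Sylow 2-subgroup of `M23`. -/
def gT' : List ℕ := CG.gensOf LT'

/-- Generators of the Sylow 2-subgroup of `M24`. -/
def gT : List ℕ := CG.gensOf LT

theorem specT : kcg.Valid gT ∧ Nat.card (kcg.gen gT) = 1024 :=
  have := CG.ordCheck_spec kcg_keyed kcg_uniq mcg_vt (N := kcg) rfl (L := LT) (n := 1024)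
    (by decide +kernel)
  ⟨this.1, this.2.2.2⟩

theorem specT' : kcg.Valid gT' ∧ Nat.card (kcg.gen gT') = 128 :=
  have := CG.ordCheck_spec kcg_keyed kcg_uniq mcg_vt (N := kcg) rfl (L := LT') (n := 128)
    (by decide +kernel)
  ⟨this.1, this.2.2.2⟩

theorem card_M23' : Nat.card (cf [23] []) = 10200960 := (card_cf _ _).trans card_cfg1

theorem card_M22' : Nat.card (cf [0, 23] []) = 443520 := (card_cf _ _).trans card_cfg2

theorem exists_conj_T {H : Subgroup M24} {a m : ℕ} (h1 : Nat.card H = a)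
    (h2 : 244823040 = m * a) (h3 : ¬ 2 ∣ m) : ∃ g : M24, kcg.In (MulAut.conj g • H) gT := by
  obtain ⟨g, -, hg⟩ := exists_conj_le' Nat.prime_two (A := ⊤) (X := kcg.gen gT) le_top le_top h1
    (card_top.trans h2) h3 (k := 10) specT.2
  exact ⟨g, In.mono (specT.1.in_gen kcg) hg⟩

theorem exists_conj_T' {H : Subgroup M24} (hH : H ≤ cf [23] []) {a m : ℕ} (h1 : Nat.card H = a)
    (h2 : 10200960 = m * a) (h3 : ¬ 2 ∣ m) :
    ∃ g ∈ cf [23] [], kcg.In (MulAut.conj g • H) gT' := by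
  obtain ⟨g, h4, hg⟩ := exists_conj_le' Nat.prime_two (X := kcg.gen gT') hH
    (CG.gen_le_of_in kcg_uniq (in_cf (by decide +kernel))) h1 (card_M23'.trans h2) h3 (k := 7)
    specT'.2
  exact ⟨g, h4, In.mono (specT'.1.in_gen kcg) hg⟩

theorem in_stab {H : Subgroup M24} (h : kcg.In H gT) :
    kcg.In (H ⊓ stabilizer M24 (gE.pt 23)) gT' := fun c hc => by
  obtain ⟨g, hg, h1⟩ := h c (List.mem_append_right _ hc)
  obtain ⟨k, hk, h2⟩ := in_cf (l := [23]) (ms := []) (gens := gT') (by decide +kernel) c hc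
  obtain rfl := kcg_uniq _ _ _ h1 h2
  exact ⟨g, ⟨hg, (mem_cf.mp hk).1 23 (by simp)⟩, h1⟩

theorem inf_stab_le (H : Subgroup M24) : H ⊓ stabilizer M24 (gE.pt 23) ≤ cf [23] [] := by
  rw [cf_cons, cf_nil]; exact inf_le_inf_right _ le_top

end Cfsg.Agent.H9.MI
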