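/-
Large subgroups of `M23` and `M24` containing a Sylow 2-subgroup.
-/
import Cfsg.Agent.H9.MIdx
import Cfsg.Agent.H4.Sextet
import Cfsg.Agent.H4.Octad

set_option autoImplicit false
set_option maxRecDepth 100000

open MulAction
open scoped Pointwise

namespace Cfsg.Agent.H9.MI

open Cfsg.Agent.H4

theorem mem_iff_of_conj {G : Type*} [Group G] {H K : Subgroup G} {g : G}
    (h : MulAut.conj g • H = K) (k : G) : k ∈ H ↔ g * k * g⁻¹ ∈ K := by
  rw [← h, mem_conj_smul]
  simp [mul_assoc]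

theorem eq_stab_of_conj {G X : Type*} [Group G] [MulAction G X] {H : Subgroup G} {g : G} {x : X}
    (h : MulAut.conj g • H = stabilizer G x) : H = stabilizer G (g⁻¹ • x) := by
  ext k
  rw [mem_iff_of_conj h, mem_stabilizer_conj (smul_inv_smul g x)]

theorem eq_of_le_card {G : Type*} [Group G] [Finite G] {H K : Subgroup G} (h : H ≤ K) {n : ℕ}
    (h1 : Nat.card H = n) (h2 : Nat.card K ≤ n) : H = K :=
  Subgroup.eq_of_le_of_card_ge h (h1 ▸ h2)

theorem card_of_index {G : Type*} [Group G] {H : Subgroup G} {a b : ℕ} (h : H.index = a)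
    (ha : 0 < a) (h1 : Nat.card G = b * a) : Nat.card H = b :=
  Nat.eq_of_mul_eq_mul_right ha (by rw [← h1, ← h, H.card_mul_index])

theorem cf_one (m : ℕ) : cf [] [m] = stabilizer M24 (gE.ofMask m) := by
  rw [cf_cons', cf_nil, top_inf_eq]

theorem cf_pt (b : ℕ) : cf [b] [] = stabilizer M24 (gE.pt b) := by
  rw [cf_cons, cf_nil, top_inf_eq]

theorem card_D : Nat.card (cf [23] [3]) ≤ 40320 :=
  card_cf_le' [(0, 3)] card_cfg3 (by decide +kernel)

theorem card_E : Nat.card (cf [23] [o0]) ≤ 40320 :=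
  card_cf_le' [(0, 0x2402f), (1, 0x2402e), (2, 0x2402c), (3, 0x24028)] card_cfg5 (by decide +kernel)

theorem card_A : Nat.card (cf [23] [7]) ≤ 5760 :=
  card_cf_le' [(0, 7), (1, 6)] card_cfg4 (by decide +kernel)

theorem card_B : Nat.card (cf [2, 23] [o0]) ≤ 5760 :=
  card_cf_le' [(0, 0x2402b), (1, 0x2402a), (3, 0x24028)] card_cfg5 (by decide +kernel)

theorem card_C : Nat.card (cf [23] [3, o0]) ≤ 1920 :=
  card_cf_le' [(0, 3), (2, 0x2402c), (3, 0x24028)] card_cfg5 (by decide +kernel)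

theorem card_O : Nat.card (cf [] [o0]) = 322560 := by
  rw [card_cf, cfg_o0, card_octad_stab o0_mem]

theorem card_duad : Nat.card (cf [] [0x800001]) ≤ 887040 :=
  card_cf_le' [(23, 0x800001)] card_cfg2 (by decide +kernel)

theorem coreA {H : Subgroup M24} (hH : H ≤ cf [23] []) (hg : kcg.In H gT') {N : ℕ}
    (hN : Nat.card H = N) (h : N = 40320 ∨ N = 13440) : H ≤ cf [23] [3] ∨ H ≤ cf [23] [o0] := by
  obtain ⟨m, hm, h1, -⟩ := orbit_cases hg hN hH [0, 2, 3, 4, 23] 4 0x7fffff [0x7ffffc, 0x7dbfd0]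
    (by rcases h with rfl | rfl <;> decide +kernel)
  simp only [List.mem_cons, List.not_mem_nil, or_false] at hm
  rcases hm with rfl | rfl
  · exact Or.inl (h1.trans (cf_le_cf (by decide +kernel)))
  · exact Or.inr (h1.trans (cf_le_cf (by decide +kernel)))

theorem coreB {H : Subgroup M24} (hH : H ≤ cf [23] []) (hg : kcg.In H gT')
    (hN : Nat.card H = 5760) : H = cf [23] [7] ∨ H = cf [2, 23] [o0] := by
  have hC : ¬ H ≤ cf [23] [3, o0] := fun h => by
    have := (Subgroup.card_le_of_le h).trans card_C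
    omega
  obtain ⟨m, hm, h1, -⟩ := orbit_cases hg hN hH [0, 2, 3, 4, 23] 4 0x7fffff
    [0x7ffff8, 0x7dbfd3, 0x7dbfd0] (by decide +kernel)
  simp only [List.mem_cons, List.not_mem_nil, or_false] at hm
  rcases hm with rfl | rfl | rfl
  · exact Or.inl (eq_of_le_card (h1.trans (cf_le_cf (by decide +kernel))) hN card_A)
  · exact absurd ((le_cf_cons h1 (h1.trans (cf_le_o0 0x82402c (by decide +kernel)))).trans
      (cf_le_cf (by decide +kernel))) hC
  have h2 : H ≤ cf [23] [o0] := h1.trans (cf_le_cf (by decide +kernel))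
  obtain ⟨m, hm, h3, -⟩ := orbit_cases hg hN h2 [0, 2, 3, 4, 23] 3 0x2402f
    [0x24028, 0x2402c, 0x2402b] (by decide +kernel)
  simp only [List.mem_cons, List.not_mem_nil, or_false] at hm
  rcases hm with rfl | rfl | rfl
  · exact Or.inl (eq_of_le_card (h3.trans (cf_le_cf (by decide +kernel))) hN card_A)
  · exact absurd (h3.trans (cf_le_cf (by decide +kernel))) hC
  · exact Or.inr (eq_of_le_card (h3.trans (cf_le_cf (by decide +kernel))) hN card_B)

/-- The sixth power on codes. -/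
def p6 (c : ℕ) : ℕ := kcg.mul (kcg.mul c c) (kcg.mul (kcg.mul c c) (kcg.mul c c))

theorem in_p6 {K A : Subgroup M24} (h : K ≤ A) {a : ℕ} (h1 : Nat.card K = a)
    (h2 : Nat.card A ≤ 3 * a) {l : List ℕ} (hl : kcg.In A l) : kcg.In K (l.map p6) := by
  intro c hc
  obtain ⟨d, hd, rfl⟩ := List.mem_map.mp hc
  obtain ⟨g, hg, h3⟩ := hl d hd
  have h4 := (K.subgroupOf A).card_mul_index
  rw [Nat.card_congr (Subgroup.subgroupOfEquivOfLe h).toEquiv, h1] at h4
  have h5 : K.relIndex A ≤ 3 := Nat.le_of_mul_le_mul_left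
    (h4.le.trans (h2.trans (mul_comm 3 a).le)) (h1 ▸ Nat.card_pos)
  have h6 := Subgroup.pow_mem_of_relIndex_ne_zero_of_dvd (H := K) (K := A)
    Subgroup.FiniteIndex.index_ne_zero hg (n := 6) fun m h7 h8 => by
      have : m ≤ 3 := h8.trans h5
      interval_cases m <;> norm_num
  refine ⟨g ^ 6, h6.1, ?_⟩
  rw [show g ^ 6 = g * g * (g * g * (g * g)) by simp only [pow_succ, pow_zero, one_mul, mul_assoc]]
  exact kcg.rep_mul (kcg.rep_mul h3 h3) (kcg.rep_mul (kcg.rep_mul h3 h3) (kcg.rep_mul h3 h3))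

theorem no13440 {H : Subgroup M24} (hH : H ≤ cf [23] []) (hg : kcg.In H gT') :
    Nat.card H ≠ 13440 := fun hN => by
  have : 9 ∣ Nat.card H := by
    rcases coreA hH hg hN (Or.inr rfl) with h | h
    · exact dvd_card_of (in_p6 h hN card_D (in_cf (gens :=
        [0xb98e51d08f9b5758b1484cace14020, 0xbcace19268a41668b4e97d5422b020, 0xb8d9221d027d0b65366b3260eac401, 0xbcec79554b73c88831b1298434d020]) (by decide +kernel))) [(0, 2), (3, 5)]
        [(2, [0xb9e5321a2d495905d90f554541b820, 0xbb8cab546d7cd90889282c8875d020],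
         [(0, 0), (1, 1), (0, 1), (1, 2), (1, 2), (1, 2), (1, 2), (1, 1)])] 9 (by decide +kernel)
    · exact dvd_card_of (in_p6 h hN card_E (in_cf (gens :=
        [0xbc2883bc64b024aab1a64cdcb104b1, 0xba1a4ad833382095a986a484f1c4ae, 0xbb2489a4b6a81475b5e485226185c2, 0xbd0cc4d827209488364b7cdd5880a3]) (by decide +kernel))) [(0, 2), (3, 5)]
        [(4, [0xbbcd45c829696cc3a8959a0108886e, 0xbd89233073795b442969ac00708a2e],
         [(0, 0), (1, 1), (0, 1), (1, 2), (1, 2), (1, 2), (1, 2), (1, 1)])] 9 (by decide +kernel)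
  omega

/-- A subgroup containing the Sylow 2-subgroup stabilises the octad or is transitive. -/
theorem coreT {H : Subgroup M24} (hg : kcg.In H gT) {N : ℕ} (hN : Nat.card H = N)
    (h : orbChk gT [23, 4] N [] [] 23 0xffffff [o0, 0xffffff] = true) :
    H ≤ cf [] [o0] ∨ 24 * Nat.card ↥(H ⊓ stabilizer M24 (gE.pt 23)) = N := by
  obtain ⟨m, hm, h1, h2⟩ := orbit_cases hg hN (cf_nil ▸ le_top) _ _ _ _ h
  simp only [List.mem_cons, List.not_mem_nil, or_false] at hm
  rcases hm with rfl | rfl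
  exacts [Or.inl h1, Or.inr h2]

theorem le_card_of_in {H : Subgroup M24} {L : List (CG.Level ℕ)} (hl : kcg.In H (CG.gensOf L))
    (n : ℕ) (h : kcg.topCheck isM24 L n = true) : n ≤ Nat.card H :=
  (CG.le_card_of_check kcg_keyed mcg_vt rfl h).trans
    (Subgroup.card_le_of_le (CG.gen_le_of_in kcg_uniq hl))

theorem In.inf {H K : Subgroup M24} {l : List ℕ} (h : kcg.In H l) (h' : kcg.In K l) :
    kcg.In (H ⊓ K) l := fun c hc => by
  obtain ⟨g, hg, h1⟩ := h c hc
  obtain ⟨k, hk, h2⟩ := h' c hc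
  obtain rfl := kcg_uniq _ _ _ h1 h2
  exact ⟨g, ⟨hg, hk⟩, h1⟩

theorem in_t {H : Subgroup M24} (h : kcg.In H gT) : kcg.In H [0x754886d013584cf4c98ab4047bc465] := fun c hc =>
  h c (List.mem_append_left _ hc)

theorem idx759 {H : Subgroup M24} (hg : kcg.In H gT) (hN : Nat.card H = 322560) :
    H = stabilizer M24 (gE.ofMask o0) := by
  rcases coreT hg hN (by decide +kernel) with h | h
  · rw [← cf_one]; exact eq_of_le_card h hN card_O.le
  · exact absurd (by omega) (no13440 (inf_stab_le H) (in_stab hg))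

/-- A chain for the sextet group. -/
def LSx : List (CG.Level ℕ) :=
  [(23, [0x754886d013584cf4c98ab4047bc465],
     [(0, 0), (0, 0), (1, 1), (2, 2), (3, 3), (6, 4), (0, 4), (1, 5), (2, 6), (0, 6), (2, 7), (3, 8), (4, 9), (5, 10), (0, 10), (3, 11), (5, 12), (3, 12), (6, 13), (1, 13), (2, 14), (6, 15), (2, 15)]),
   (0, [0xba56e64e0f2915538e26922d468801],
     [(0, 0), (1, 0)]),
   (1, [0xb9d8e941f32d2b668e245a14648440],
     [(0, 0)]),
   (3, [0xba0b31a60c3b64fa54ca8bacb20820],
     [(0, 0), (0, 0), (1, 1), (2, 2), (0, 2), (1, 3), (2, 4), (3, 5), (2, 5), (3, 6), (0, 6), (3, 7), (1, 7), (0, 7), (2, 8), (0, 8), (1, 8), (2, 9), (3, 4)]),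
   (4, [0xba64d4562f83a87312d362caa18820, 0xbcc8cb2a265b8f47c9096c0b518820],
     [(0, 0), (1, 1), (1, 1), (2, 2), (2, 2), (2, 2), (0, 2), (1, 3), (0, 3), (1, 4), (0, 4), (1, 5), (2, 6), (1, 6), (1, 5)]),
   (5, [0xbc12ba18ad946c79b11553dc418820],
     [(0, 0), (0, 0)])]

theorem idx1771 {H : Subgroup M24} (hg : kcg.In H gT) (hN : Nat.card H = 138240) :
    H = stabilizer M24 sx0 := by
  rcases coreT hg hN (by decide +kernel) with h | h
  · have := Subgroup.card_dvd_of_le h
    rw [hN, card_O] at this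
    omega
  rcases coreB (inf_stab_le H) (in_stab hg) (by omega) with h1 | h1
  · have h2 : kcg.In H (CG.gensOf LSx) := In.append (in_t hg)
      (In.mono (in_cf (gens := CG.gensOf LSx.tail) (by decide +kernel)) (h1.ge.trans inf_le_left))
    have h3 : kcg.In (stabilizer M24 sx0) (CG.gensOf LSx) :=
      (sound_memSx t0).gens (by decide +kernel)
    have h4 := le_card_of_in (In.inf h2 h3) 138240 (by decide +kernel)
    exact (Subgroup.eq_of_le_of_card_ge inf_le_left (hN ▸ h4)).symm.trans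
      (Subgroup.eq_of_le_of_card_ge inf_le_right (card_stab_sx0 ▸ h4))
  · have := dvd_card_of_ord (In.append (in_t hg) (In.mono (in_cf (gens := [0xb9d96549d33020b4b6b443e2408865])
      (by decide +kernel)) (h1.ge.trans inf_le_left))) [(0, 2)] 7 (by norm_num) (by decide +kernel)
    omega

/-- A chain for the octad group. -/
def LO : List (CG.Level ℕ) :=
  [(23, [0x754886d013584cf4c98ab4047bc465],
     [(0, 0), (0, 0), (3, 1), (4, 2), (7, 3), (0, 2), (1, 3)]),
   (0, [0xbace96c06a4065523286b4c0f2ba22],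
     [(0, 0), (0, 0), (2, 1), (0, 1), (2, 2), (3, 3)]),
   (1, [0xbaeb64c02f938e6a4d4c220ad88860],
     [(0, 0), (0, 0), (2, 1), (1, 1), (3, 2)]),
   (2, [0xb9e0d430569156934de4ad1ca1c420],
     [(0, 0), (2, 0), (4, 1), (1, 1)]),
   (3, [0xbda536262d30c9451eaf5a1d028820],
     [(0, 0), (0, 0), (1, 1)]),
   (4, [0xbac8a69dd2a159333d3585a2818820, 0xbd5f04a1c6b166c911ab5522718820],
     [(0, 0), (1, 1), (0, 1), (1, 2), (0, 2), (1, 3), (1, 3), (2, 4), (0, 4), (1, 5), (2, 6), (2, 6), (2, 6), (0, 6), (1, 7)]),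
   (5, [0xbc12ba18ad946c79b11553dc418820],
     [(0, 0), (0, 0)])]

theorem idx253 (hmax : IsCoatom (stabilizer M24 (gE.ofMask o0))) {H : Subgroup M24}
    (hg : kcg.In H gT) : Nat.card H ≠ 967680 := fun hN => by
  rcases coreT hg hN (by decide +kernel) with h | h
  · have := Subgroup.card_le_of_le h
    rw [hN, card_O] at this
    omega
  have h0 : Nat.card ↥(H ⊓ stabilizer M24 (gE.pt 23)) = 40320 := by omega
  rcases coreA (inf_stab_le H) (in_stab hg) h0 (Or.inl rfl) with h1 | h1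
  · have := dvd_card_of_ord (In.append (in_t hg) (In.mono (in_cf (gens := [0xb992d72aa523e5138a0b9a07465801])
      (by decide +kernel)) ((eq_of_le_card h1 h0 card_D).ge.trans inf_le_left))) [(0, 2)] 23
      (by norm_num) (by decide +kernel)
    omega
  · have h2 : kcg.In H (CG.gensOf LO) := In.append (in_t hg)
      (In.mono (in_cf (gens := CG.gensOf LO.tail) (by decide +kernel))
        ((eq_of_le_card h1 h0 card_E).ge.trans inf_le_left))
    have h4 := le_card_of_in (In.inf h2 (in_cf (l := []) (ms := [o0]) (by decide +kernel))) 322560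
      (by decide +kernel)
    have h5 := (Subgroup.eq_of_le_of_card_ge inf_le_right (card_O ▸ h4)).ge.trans inf_le_left
    have h6 := card_O
    rw [cf_one] at h5 h6
    rcases h5.eq_or_lt with h7 | h7
    · rw [h7, hN] at h6; omega
    · rw [hmax.2 H h7, card_top] at hN; omega

/-- The code of `t ↦ 2 t`. -/
def gy : ℕ := 0xbd6717b56939461b52507314831040

theorem idx276 {H : Subgroup M24} (hg : kcg.In H [gy]) (hN : Nat.card H = 887040) :
    H = stabilizer M24 (gE.ofMask 0x800001) := by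
  obtain ⟨m, hm, h1, h2⟩ := orbit_cases hg hN (cf_nil ▸ le_top) [23, 0, 1, 5] 23 0xffffff
    [0x800001, 0x800000, 0xffffff] (by decide +kernel)
  simp only [List.mem_cons, List.not_mem_nil, or_false] at hm
  rcases hm with rfl | rfl | rfl
  · rw [← cf_one]; exact eq_of_le_card h1 hN card_duad
  · have := Subgroup.card_dvd_of_le (h1.trans (cf_le_cf (l' := [23]) (ms' := []) (by decide +kernel)))
    rw [hN, card_M23'] at this
    omega
  exfalso
  have h3 : Nat.card ↥(H ⊓ stabilizer M24 (gE.pt 23)) = 36960 := by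
    rw [show pc 24 0xffffff = 24 by decide +kernel] at h2
    omega
  have h4 : kcg.In (H ⊓ stabilizer M24 (gE.pt 23)) [gy] :=
    In.inf hg (cf_pt 23 ▸ in_cf (by decide +kernel))
  obtain ⟨m, hm, h5, -⟩ := orbit_cases h4 h3 (inf_stab_le H) [23, 0, 1, 5] 0 0x7fffff [1]
    (by decide +kernel)
  obtain rfl := List.mem_singleton.mp hm
  have h6 := h5.trans (cf_le_cf (l' := [0, 23]) (ms' := []) (by decide +kernel))
  obtain ⟨u, hu, ho⟩ := exists_orderOf _ (p := 7) (by norm_num) (by rw [h3]; norm_num)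
  have h7 := List.mem_singleton.mp (nz_mem (h6 hu) (by norm_num) ho card_M22'
    ((nz_dvd le_top u).trans (nz7 ho)) [21] (by decide +kernel))
  exact List.not_mem_nil (nz_mem hu (by norm_num) ho h3 (h7 ▸ nz_dvd h6 u) [] (by decide +kernel))

end Cfsg.Agent.H9.MI
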