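/-
Isomorphisms of groups from a common permutation representation.
-/
import Cfsg.Agent.H4.Cover

set_option autoImplicit false
set_option maxRecDepth 100000

open scoped Pointwise
open MulAction

namespace Cfsg.Agent.H9.PR

open Cfsg.Agent.H4

section abstract

variable {G α : Type*} [Group G] [MulAction G α] {ι : Type*} [Fintype ι]

theorem eq_of_mapsTo {y : ι → Set α} (hf : ∀ i, (y i).Finite) {g : G} {σ : Equiv.Perm ι}
    (h : ∀ i, ∀ a ∈ y i, g • a ∈ y (σ i)) (i : ι) : g • y i = y (σ i) := by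
  have h1 : ∀ i, g • y i ⊆ y (σ i) := by
    rintro i _ ⟨a, ha, rfl⟩
    exact h i a ha
  have h2 : ∀ i, (y i).ncard ≤ (y (σ i)).ncard := fun i => by
    rw [← Set.ncard_smul_set g]
    exact Set.ncard_le_ncard (h1 i) (hf _)
  have h3 := (Finset.sum_eq_sum_iff_of_le (s := Finset.univ) fun i _ => h2 i).mp
    (Equiv.sum_comp σ fun i => (y i).ncard).symm i (Finset.mem_univ _)
  exact Set.eq_of_subset_of_ncard_le (h1 i) (by rw [Set.ncard_smul_set, h3]) (hf _)

theorem exists_hom {X : Type*} [MulAction G X] {y : ι → X} (H : Subgroup G) [Finite H]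
    {S : Set (Equiv.Perm ι)} (hS : ∀ σ ∈ S, ∃ g ∈ H, ∀ i, g • y i = y (σ i)) (o : ι)
    (htr : ∀ i, ∃ σ ∈ Subgroup.closure S, σ i = o) (h0 : ∀ j, y j = y o → j = o)
    (Z : Subgroup H) (hZ : ∀ z ∈ Z, ∀ i, (z : G) • y i = y i)
    (hc : Nat.card H ≤ Nat.card Z * Nat.card (Subgroup.closure S)) :
    ∃ φ : H →* Subgroup.closure S, Function.Surjective φ ∧ φ.ker = Z := by
  classical
  have h1 : ∀ σ ∈ Subgroup.closure S, ∃ g ∈ H, ∀ i, g • y i = y (σ i) := fun σ hσ => by
    induction hσ using Subgroup.closure_induction with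
    | mem σ h => exact hS σ h
    | one => exact ⟨1, H.one_mem, fun i => one_smul _ _⟩
    | mul σ τ _ _ a b =>
      obtain ⟨g, hg, a⟩ := a
      obtain ⟨k, hk, b⟩ := b
      exact ⟨g * k, H.mul_mem hg hk, fun i => by rw [mul_smul, b, a]; rfl⟩
    | inv σ _ a =>
      obtain ⟨g, hg, a⟩ := a
      exact ⟨g⁻¹, H.inv_mem hg, fun i => by rw [inv_smul_eq_iff, a]; simp⟩
  have hy : Function.Injective y := fun i j e => by
    obtain ⟨σ, hσ, h2⟩ := htr i
    obtain ⟨g, -, h3⟩ := h1 σ hσ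
    exact σ.injective (h2.trans (h0 _ (by rw [← h3, ← e, h3, h2])).symm)
  let D : Subgroup (H × Subgroup.closure S) :=
    { carrier := {x | ∀ i, (x.1 : G) • y i = y ((x.2 : Equiv.Perm ι) i)}
      mul_mem' := fun {a b} ha hb i => by
        rw [Prod.fst_mul, Subgroup.coe_mul, mul_smul, hb, ha]; rfl
      one_mem' := fun i => one_smul _ _
      inv_mem' := fun {a} ha i => by
        rw [Prod.fst_inv, Subgroup.coe_inv, inv_smul_eq_iff, ha]; simp }
  let f : D →* H := (MonoidHom.fst _ _).comp D.subtype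
  let s : D →* Subgroup.closure S := (MonoidHom.snd _ _).comp D.subtype
  have hf : Function.Injective f := (injective_iff_map_eq_one f).mpr fun x hx => by
    have h2 : x.1.1 = 1 := hx
    refine Subtype.ext (Prod.ext h2 (Subtype.ext (Equiv.ext fun i => hy ?_)))
    rw [← x.2 i, h2]
    exact one_smul _ _
  have hs : Function.Surjective s := fun σ => by
    obtain ⟨g, hg, h2⟩ := h1 σ.1 σ.2
    exact ⟨⟨(⟨g, hg⟩, σ), h2⟩, rfl⟩
  have h2 : Nat.card D = Nat.card (Subgroup.closure S) * Nat.card s.ker := by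
    rw [s.ker.card_eq_card_quotient_mul_card_subgroup,
      Nat.card_congr (QuotientGroup.quotientKerEquivOfSurjective s hs).toEquiv]
  have h3 : Z ≤ s.ker.map f := fun z hz => ⟨⟨(z, 1), hZ z hz⟩, rfl, rfl⟩
  have h4 : Nat.card (s.ker.map f) = Nat.card s.ker := Subgroup.card_map_of_injective hf
  have h5 := Subgroup.card_le_of_le h3
  have h6 : Nat.card D ≤ Nat.card H := Nat.card_le_card_of_injective f hf
  have h7 : 0 < Nat.card (Subgroup.closure S) := Nat.card_pos
  have h8 : Function.Bijective f := hf.bijective_of_nat_card_le (by nlinarith)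
  have h9 : s.ker.map f = Z :=
    (Subgroup.eq_of_le_of_card_ge h3 (Nat.le_of_mul_le_mul_left (by nlinarith) h7)).symm
  let e := MulEquiv.ofBijective f h8
  refine ⟨s.comp e.symm.toMonoidHom, hs.comp e.symm.surjective, ?_⟩
  rw [← h9]
  ext x
  obtain ⟨x, rfl⟩ := e.surjective x
  rw [MonoidHom.mem_ker, MonoidHom.comp_apply]
  simp only [MulEquiv.toMonoidHom_eq_coe, MonoidHom.coe_coe, MulEquiv.symm_apply_apply]
  exact (Subgroup.mem_map_iff_mem (K := s.ker) (x := x) hf).symm

theorem center_eq_bot {P : Subgroup (Equiv.Perm ι)} {o : ι} (htr : ∀ i, ∃ σ ∈ P, σ i = o)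
    {a : Equiv.Perm ι} (ha : a ∈ P) (h : ∀ i, a i = i ↔ i = o) : Subgroup.center P = ⊥ := by
  refine eq_bot_iff.mpr fun z hz => Subtype.ext (Equiv.ext fun i => ?_)
  have h1 : ∀ σ ∈ P, ∀ j, σ (z.1 j) = z.1 (σ j) := fun σ hσ j =>
    congrArg (fun x : P => x.1 j) (Subgroup.mem_center_iff.mp hz ⟨σ, hσ⟩)
  have h2 : z.1 o = o := (h _).mp (by rw [h1 a ha, (h o).mpr rfl])
  obtain ⟨σ, hσ, h3⟩ := htr i
  exact σ.injective (by rw [h1 σ hσ, h3, h2]; exact h3.symm)

theorem equiv_of_conj {H K : Subgroup G} (g : G) (h : ∀ x, x ∈ H ↔ g * x * g⁻¹ ∈ K) :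
    Nonempty (K ≃* H) := by
  have : K = H.map (MulAut.conj g).toMonoidHom := by
    ext x
    obtain ⟨x, rfl⟩ := (MulAut.conj g).surjective x
    exact (h x).symm.trans (Subgroup.mem_map_iff_mem (MulAut.conj g).injective).symm
  exact ⟨(MulEquiv.subgroupCongr this).trans ((MulAut.conj g).subgroupMap H).symm⟩

theorem conj_mem_stab {X : Type*} [MulAction G X] (g x : G) (a : X) :
    x ∈ stabilizer G a ↔ g * x * g⁻¹ ∈ stabilizer G (g • a) := by
  simp [mem_stabilizer_iff, mul_smul]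

end abstract

/-- Evaluate `n` before continuing. -/
def frc (n : ℕ) (k : ℕ → Bool) : Bool := Nat.rec true (fun m _ => k m) (Nat.succ n)

/-- A straight-line program of products with strict evaluation. -/
def slpK (n w : ℕ) (prog : List (ℕ × ℕ)) (k : List ℕ → Bool) : List ℕ → Bool :=
  List.rec k (fun s _ ih l => frc (comp n w (getL (idc n w) l s.1) (getL (idc n w) l s.2))
    fun x => ih (x :: l)) prog

/-- The check on the permutation side: `a :: gens` generate a transitive group of order at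
least `N`, and `a` fixes only `0`. -/
def permChk (n w a : ℕ) (gens : List ℕ) (prog : List (ℕ × ℕ)) (L : List (ℕ × List ℕ))
    (r N : ℕ) : Bool :=
  band (band (allL (a :: gens) (isPerm n w))
      (allLt n fun i => Nat.beq (b2n (Nat.beq (img w a i) i)) (b2n (Nat.beq i 0))))
    (band (Nat.beq (orbM n w (a :: gens) r 0) (Nat.sub (Nat.pow 2 n) 1))
      (slpK n w prog (fun l => Nat.ble N (chainLB n w r
        (L.map fun lv => (lv.1, lv.2.map (getL 0 l))) (memL l))) (a :: gens)))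

variable {n w : ℕ} [NeZero n] (hw : n ≤ 2 ^ w)

/-- The permutations described by a list of codes. -/
def pset (l : List ℕ) : Set (Equiv.Perm (Fin n)) := {σ | ∃ c ∈ l, (finEnc n w hw).Rep σ c}

theorem slpK_spec {K : Subgroup (Equiv.Perm (Fin n))} (prog : List (ℕ × ℕ)) {k : List ℕ → Bool}
    {l : List ℕ} (hl : (finEnc n w hw).cg.In K l) (h : slpK n w prog k l = true) :
    ∃ l', (finEnc n w hw).cg.In K l' ∧ k l' = true := by
  induction prog generalizing l with
  | nil => exact ⟨l, hl, h⟩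
  | cons s prog ih =>
    refine ih (l := comp n w (getL (idc n w) l s.1) (getL (idc n w) l s.2) :: l) ?_ h
    intro c hc
    rcases List.mem_cons.mp hc with rfl | hc
    · obtain ⟨g, hg, h1⟩ := hl.getL _ s.1
      obtain ⟨g', hg', h2⟩ := hl.getL _ s.2
      exact ⟨g * g', K.mul_mem hg hg', Enc.Rep.mul h1 h2⟩
    · exact hl c hc

theorem permChk_spec {a : ℕ} {gens : List ℕ} {prog : List (ℕ × ℕ)} {L : List (ℕ × List ℕ)}
    {r N : ℕ} (h : permChk n w a gens prog L r N = true) :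
    (∀ i, ∃ σ ∈ Subgroup.closure (pset hw (a :: gens)), σ i = 0) ∧
      Subgroup.center (Subgroup.closure (pset hw (a :: gens))) = ⊥ ∧
      N ≤ Nat.card (Subgroup.closure (pset hw (a :: gens))) := by
  simp only [permChk, band_eq, Bool.and_eq_true] at h
  obtain ⟨⟨h1, h2⟩, h3, h4⟩ := h
  have h5 : (finEnc n w hw).cg.In (Subgroup.closure (pset hw (a :: gens))) (a :: gens) :=
    CG.Valid.in_gen _ ((finEnc n w hw).cg_valid h1)
  have h6 : ∀ i, ∃ σ ∈ Subgroup.closure (pset hw (a :: gens)), σ i = 0 := fun i => by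
    obtain ⟨g, hg, h7⟩ := Enc.orbM_sound (E := finEnc n w hw) (b := 0) h5 r i (by
      rw [Nat.eq_of_beq_eq_true h3]
      exact (Nat.testBit_two_pow_sub_one n i).trans (decide_eq_true i.2))
    exact ⟨g⁻¹, Subgroup.inv_mem _ hg, by rw [← h7]; exact g.symm_apply_apply _⟩
  obtain ⟨g, hg, h7⟩ := h5 a List.mem_cons_self
  obtain ⟨l, h8, h9⟩ := slpK_spec hw prog h5 h4
  refine ⟨h6, center_eq_bot h6 hg fun i => ?_, (Nat.le_of_ble_eq_true h9).trans
    (Enc.chainLB_le (E := finEnc n w hw) r _ _ _ fun p hp => h8 p (memL_iff.mp hp))⟩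
  have h10 := Nat.eq_of_beq_eq_true (allLt_iff.mp h2 i i.2)
  have h11 : (g i : ℕ) = img w a i := h7 i
  rw [b2n_eq, b2n_eq, ← h11] at h10
  simp only [Nat.beq_eq] at h10
  rw [Fin.ext_iff, Fin.ext_iff, Fin.val_zero]
  split_ifs at h10 with h12 h13 h13
  · exact iff_of_true h12 h13
  · exact iff_of_false h12 h13

/-- One side of the comparison. -/
theorem exists_hom_of {G α : Type*} [Group G] [MulAction G α] {y : ℕ → Set α}
    (hf : ∀ i, (y i).Finite) (H : Subgroup G) [Finite H] {l : List ℕ}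
    (hS : ∀ p ∈ l, ∃ g ∈ H, ∀ i < n, ∀ a ∈ y i, g • a ∈ y (img w p i))
    (htr : ∀ i, ∃ σ ∈ Subgroup.closure (pset hw l), σ i = 0)
    (h0 : ∀ j < n, y j = y 0 → j = 0) (Z : Subgroup H) (hZ : ∀ z ∈ Z, ∀ i, (z : G) • y i = y i)
    (hc : Nat.card H ≤ Nat.card Z * Nat.card (Subgroup.closure (pset hw l))) :
    ∃ φ : H →* Subgroup.closure (pset hw l), Function.Surjective φ ∧ φ.ker = Z := by
  refine exists_hom (y := fun i : Fin n => y i) H ?_ 0 htr (fun j hj => Fin.ext (h0 j j.2 hj)) Z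
    (fun z hz i => hZ z hz i) hc
  rintro σ ⟨p, hp, h1⟩
  obtain ⟨g, hg, h2⟩ := hS p hp
  refine ⟨g, hg, eq_of_mapsTo (y := fun i : Fin n => y i) (fun i => hf i) fun i a ha => ?_⟩
  have h3 : (σ i : ℕ) = img w p i := h1 i
  rw [h3]
  exact h2 i i.2 a ha

/-- Row `i` of a table with `k` entries of `W` bits in each row. -/
def rows (T k W i : ℕ) : List ℕ :=
  Nat.rec [] (fun j ih => img W T (Nat.add (Nat.mul k i) j) :: ih) k

end Cfsg.Agent.H9.PR
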