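/-
The action of a special unitary group on a family of subspaces, on codes.
-/
import Cfsg.Agent.H9.PRep
import Cfsg.Agent.H9.SUcg
import Cfsg.Agent.H5.SUc

set_option autoImplicit false
set_option maxRecDepth 100000

open scoped Pointwise
open MulAction Matrix

namespace Cfsg.Agent.H9.PR

open Cfsg.Agent.H4 Cfsg.Agent.H9.SUcg

/-- The check of the sphere counts on codes (`m` is the code of `-1`). -/
def sphChk (O : Ops) (q n e m : ℕ) (g : ℕ → ℕ → ℕ) : Bool :=
  band (band (Nat.blt m q) (Nat.beq (O.add 1 m) 0)) (band (Nat.ble 1 (g 0 0))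
    (allLt n fun k => allLt q fun c =>
      Nat.ble (sumLt q fun a => g k (O.add c (O.mul m (O.mul a (O.pw a e))))) (g (k + 1) c)))

/-- Power of a matrix code. -/
def mpw (O : Ops) (w n c m : ℕ) : ℕ := Nat.rec (Ops.scal w n 1) (fun _ ih => O.mmul w n ih c) m

/-- A unitary matrix whose order divides `m`, coprime to `e + 1`. -/
def suChk (O : Ops) (q w n e c m : ℕ) : Bool :=
  band (band (Ops.okC q w (n * n) c) (uniC O w n e c))
    (band (Nat.beq (mpw O w n c m) (Ops.scal w n 1)) (Nat.beq (Nat.gcd m (e + 1)) 1))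

/-- `s • b + c` on codes. -/
def axpy (O : Ops) (w n s b c : ℕ) : ℕ := pack w n fun i => O.add (O.mul s (img w b i)) (img w c i)

/-- The combination of the vectors in `l` (entry: pivot + 8 * vector) read off from `v`. -/
def lc (O : Ops) (q w n v : ℕ) (l : List ℕ) : ℕ :=
  List.rec 0 (fun b _ ih => axpy O w n (Nat.mod (img w v (Nat.land b 7)) q)
    (Nat.shiftRight b 3) ih) l

/-- The check that the matrix `c` permutes the subspaces according to `p`. -/
def actChk (O : Ops) (q w n : ℕ) (B : ℕ → List ℕ) (N W c p : ℕ) : Bool :=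
  allLt N fun i => allL (B i) fun b => frc (O.mvec w n c (Nat.shiftRight b 3)) fun v =>
    Nat.beq v (lc O q w n v (B (img W p i)))

/-- The check that the subspace `0` is different from the others. -/
def sepChk (O : Ops) (q w n : ℕ) (B : ℕ → List ℕ) (N A : ℕ) : Bool :=
  band (band (Ops.okC q w (n * n) A)
      (allL (B 0) fun b => Nat.beq (O.mvec w n A (Nat.shiftRight b 3)) 0))
    (allLt N fun j => band (allL (B j) fun b => Ops.okC q w n (Nat.shiftRight b 3))
      (bor (Nat.beq j 0) (anyL (B j) fun b => bnot (Nat.beq (O.mvec w n A (Nat.shiftRight b 3)) 0))))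

/-- The check for the scalars. -/
def scChk (O : Ops) (q n e : ℕ) (l : List ℕ) : Bool :=
  band (nodupL l) (allL l fun s => band (Nat.blt s q)
    (band (Nat.beq (O.mul s (O.pw s e)) 1) (Nat.beq (O.pw s n) 1)))

variable {F : Type*} [Field F] {q w : ℕ} {O : Ops} (K : FC F q w O)

include K in
theorem card_SU_le_of [Fintype F] (hF : Fintype.card F = q) {n e m : ℕ} (he : e ≠ 0)
    {g : ℕ → ℕ → ℕ} (h : sphChk O q n e m g = true) :
    Nat.card (SU n F e) ≤ ∏ k ∈ Finset.range (n - 1), g (k + 2) 1 := by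
  simp only [sphChk, band_eq, Bool.and_eq_true, Nat.blt_eq, Nat.beq_eq, Nat.ble_eq, allLt_iff] at h
  obtain ⟨⟨h1, h2⟩, h3, h4⟩ := h
  choose ix h5 h6 using K.surj hF
  have h7 : ∀ a < q, ix (K.val a) = a := fun a ha => K.inj _ _ (h5 _) ha (h6 _)
  have h8 : K.val m = -1 := by
    have := K.val_add 1 m K.one_lt h1
    rw [h2, K.val_zero, K.val_one] at this
    linear_combination -this
  have := H5.card_SU_le (n := n) (F := F) he (fun k c => g k (ix c))
    (by rw [← K.val_zero, h7 0 K.pos]; exact h3) fun k hk c => by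
      refine le_trans (le_of_eq ?_) (h4 k hk (ix c) (h5 c))
      rw [sumLt_eq]
      refine Finset.sum_bij' (fun x _ => ix x) (fun a _ => K.val a)
        (fun x _ => Finset.mem_range.mpr (h5 x)) (fun _ _ => Finset.mem_univ _) (fun x _ => h6 x)
        (fun a ha => h7 a (Finset.mem_range.mp ha)) fun x _ => ?_
      have p1 := K.pw_spec (h5 x) e
      have p2 := K.mul_lt _ _ (h5 x) p1.1
      have p3 := K.mul_lt _ _ h1 p2
      rw [← h7 _ (K.add_lt _ _ (h5 c) p3), K.val_add _ _ (h5 c) p3, K.val_mul _ _ h1 p2,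
        K.val_mul _ _ (h5 x) p1.1, p1.2, h6, h6, h8, neg_one_mul, sub_eq_add_neg]
  simpa only [← K.val_one, h7 1 K.one_lt] using this

theorem uni_spec {n e c : ℕ} {A : Matrix (Fin n) (Fin n) F} (hg : K.RepM A c)
    (hc : uniC O w n e c = true) (i j : Fin n) :
    ∑ k, A k i * A k j ^ e = if i = j then 1 else 0 := by
  have h1 := Nat.eq_of_beq_eq_true (allLt_iff.mp (allLt_iff.mp hc i i.2) j j.2)
  have h2 := congrArg K.val h1
  rw [(K.sum_spec n _ fun k hk => K.mul_lt _ _ (hg ⟨k, hk⟩ i).1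
    (K.pw_spec (hg ⟨k, hk⟩ j).1 e).1).2, ite'_eq] at h2
  have h3 : ∀ k : Fin n, K.val (O.mul (img w c (n * k + i)) (O.pw (img w c (n * k + j)) e)) =
      A k i * A k j ^ e := fun k => by
    rw [K.val_mul _ _ (hg k i).1 (K.pw_spec (hg k j).1 e).1, (K.pw_spec (hg k j).1 e).2,
      ← (hg k i).2, ← (hg k j).2]
  simp only [h3] at h2
  rw [h2]
  by_cases hij : i = j
  · simp [hij, K.val_one]
  · have : (i : ℕ) ≠ j := fun h' => hij (Fin.ext h')
    simp [hij, this, K.val_zero]

theorem repM_mpw {n c : ℕ} {A : Matrix (Fin n) (Fin n) F} (hg : K.RepM A c) (m : ℕ) :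
    K.RepM (A ^ m) (mpw O w n c m) := by
  induction m with
  | zero => exact FC.repM_one n
  | succ m ih => rw [pow_succ]; exact ih.mul hg

theorem exists_su {n e c m : ℕ} (τ : F →+* F) (hτ : ∀ x, τ x = x ^ e)
    (h : suChk O q w n e c m = true) : ∃ g : SU n F e, K.RepM (suHom n F e g) c := by
  simp only [suChk, band_eq, Bool.and_eq_true, Nat.beq_eq] at h
  obtain ⟨⟨h1, h2⟩, h3, h4⟩ := h
  have h5 := K.repM_matOf h1
  have h6 := uni_spec K h5 h2
  generalize K.matOf n c = A at h5 h6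
  have h7 : A ^ m = 1 := (repM_mpw K h5 m).unique (h3 ▸ FC.repM_one n)
  have h8 : Aᵀ * τ.mapMatrix A = 1 := by
    ext i j
    simpa [Matrix.mul_apply, hτ, Matrix.one_apply] using h6 i j
  have h9 : A.det ^ (e + 1) = 1 := by
    have := congrArg Matrix.det h8
    rwa [det_mul, det_transpose, ← RingHom.map_det, hτ, det_one, ← pow_succ'] at this
  have h10 : A.det = 1 := by
    have := pow_gcd_eq_one.mpr ⟨(by rw [← det_pow, h7, det_one] : A.det ^ m = 1), h9⟩
    rwa [h4, pow_one] at this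
  exact ⟨⟨⟨A, h10⟩, mem_SU_of τ hτ _ h6⟩, h5⟩

theorem repV_zero (n : ℕ) : K.RepV (0 : Fin n → F) 0 := fun i => by
  have : img w 0 i = 0 := by
    change (0 >>> (w * i)) % 2 ^ w = 0
    simp
  rw [this]
  exact ⟨K.pos, K.val_zero.symm⟩

theorem repV_axpy {n s b c : ℕ} {u v : Fin n → F} (hs : s < q) (hu : K.RepV u b)
    (hv : K.RepV v c) : K.RepV (K.val s • u + v) (axpy O w n s b c) := fun i => by
  have h1 := K.mul_lt _ _ hs (hu i).1
  have h2 := K.add_lt _ _ h1 (hv i).1
  have h3 : img w (axpy O w n s b c) i = O.add (O.mul s (img w b i)) (img w c i) :=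
    img_pack w n _ (fun t ht => lt_of_lt_of_le (K.add_lt _ _ (K.mul_lt _ _ hs (hu ⟨t, ht⟩).1)
      (hv ⟨t, ht⟩).1) K.le_pow) i i.2
  rw [h3, K.val_add _ _ h1 (hv i).1, K.val_mul _ _ hs (hu i).1, ← (hu i).2, ← (hv i).2]
  exact ⟨h2, rfl⟩

/-- The subspace spanned by the vectors with codes in `l`. -/
def spn (n : ℕ) (l : List ℕ) : Submodule F (Fin n → F) :=
  Submodule.span F {v | ∃ b ∈ l, v = K.vecOf n (Nat.shiftRight b 3)}

theorem lc_spec {n v : ℕ} {l : List ℕ} (h : ∀ b ∈ l, Ops.okC q w n (Nat.shiftRight b 3) = true) :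
    ∃ u ∈ spn K n l, K.RepV u (lc O q w n v l) := by
  induction l with
  | nil => exact ⟨0, Submodule.zero_mem _, repV_zero K n⟩
  | cons b l ih =>
    obtain ⟨u, h1, h2⟩ := ih fun c hc => h c (List.mem_cons_of_mem _ hc)
    refine ⟨_, ?_, repV_axpy K (Nat.mod_lt _ K.pos) (K.repV_vecOf (h b List.mem_cons_self)) h2⟩
    refine Submodule.add_mem _ (Submodule.smul_mem _ _ (Submodule.subset_span
      ⟨b, List.mem_cons_self, rfl⟩)) (Submodule.span_mono ?_ h1)
    rintro _ ⟨c, hc, rfl⟩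
    exact ⟨c, List.mem_cons_of_mem _ hc, rfl⟩

theorem mulVec_mem {n : ℕ} {l : List ℕ} {A : Matrix (Fin n) (Fin n) F}
    {S : Submodule F (Fin n → F)} (h : ∀ b ∈ l, A *ᵥ K.vecOf n (Nat.shiftRight b 3) ∈ S) :
    ∀ v ∈ spn K n l, A *ᵥ v ∈ S := by
  have : spn K n l ≤ S.comap A.mulVecLin := Submodule.span_le.mpr (by
    rintro _ ⟨b, hb, rfl⟩
    exact h b hb)
  exact fun v hv => this hv

theorem eq_zero_of_repV {n : ℕ} {A : Matrix (Fin n) (Fin n) F} {v : Fin n → F} {a c : ℕ}
    (hA : K.RepM A a) (hv : K.RepV v c) (h : A *ᵥ v = 0) : O.mvec w n a c = 0 := by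
  have h1 := hA.mulVec hv
  rw [h] at h1
  have h2 : ∀ i, i < n → (O.sum n fun k => O.mul (img w a (Nat.add (Nat.mul n i) k))
      (img w c k)) = 0 := fun i hi => by
    have h3 := (K.sum_spec n (fun k => O.mul (img w a (Nat.add (Nat.mul n i) k)) (img w c k))
      fun k hk => K.mul_lt _ _ (hA ⟨i, hi⟩ ⟨k, hk⟩).1 (hv ⟨k, hk⟩).1).1
    refine K.inj _ _ h3 K.pos ?_
    rw [K.val_zero, ← img_pack w n (fun i => O.sum n fun k =>
      O.mul (img w a (Nat.add (Nat.mul n i) k)) (img w c k)) (fun t ht => lt_of_lt_of_le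
        (K.sum_spec n _ fun k hk => K.mul_lt _ _ (hA ⟨t, ht⟩ ⟨k, hk⟩).1 (hv ⟨k, hk⟩).1).1
        K.le_pow) i hi]
    exact (h1 ⟨i, hi⟩).2.symm
  refine (FC.pack_congr h2).trans (Nat.eq_zero_of_le_zero (Nat.lt_succ_iff.mp ?_))
  clear h2 h1 h hv hA
  induction n with
  | zero => exact Nat.one_pos
  | succ n ih =>
    change pack w n (fun _ => 0) ||| 0 <<< (w * n) < 1
    rw [Nat.zero_shiftLeft, Nat.or_zero]
    exact ih (A := 0) (v := 0)

include K in
/-- The projective special unitary group as a permutation group. -/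
theorem psu_equiv [Fintype F] {n e N W : ℕ} [NeZero N] [NeZero n] (hw : N ≤ 2 ^ W) (τ : F →+* F)
    (hτ : ∀ x, τ x = x ^ e) {B : ℕ → List ℕ} {A : ℕ} (h1 : sepChk O q w n B N A = true)
    {sc : List ℕ} (h2 : scChk O q n e sc = true) {l : List (ℕ × ℕ × ℕ)}
    (h3 : (allL l fun x => band (band (isPerm N W x.1) (suChk O q w n e x.2.1 x.2.2))
      (actChk O q w n B N W x.2.1 x.1)) = true)
    (htr : ∀ i, ∃ σ ∈ Subgroup.closure (pset hw (l.map Prod.fst)), σ i = 0)
    (hz : Subgroup.center (Subgroup.closure (pset hw (l.map Prod.fst))) = ⊥)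
    (hc : Nat.card (SU n F e) ≤ sc.length * Nat.card (Subgroup.closure (pset hw (l.map Prod.fst)))) :
    Nonempty (Subgroup.closure (pset hw (l.map Prod.fst)) ≃* PSU n F e) := by
  classical
  letI := FC.vecAction n (suHom n F e)
  have sm : ∀ (g : SU n F e) (v : Fin n → F), g • v = suHom n F e g *ᵥ v := fun _ _ => rfl
  simp only [sepChk, scChk, band_eq, bor_eq, Bool.and_eq_true, Bool.or_eq_true, allLt_iff,
    allL_iff, anyL_iff, Nat.beq_eq, Nat.blt_eq, bnot_eq, Bool.not_eq_true'] at h1 h2 h3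
  obtain ⟨⟨a1, a2⟩, a3⟩ := h1
  let y : ℕ → Set (Fin n → F) := fun i => spn K n (B i)
  let Z : Subgroup (SU n F e) := Subgroup.center _ ⊓ ⨅ i, stabilizer _ (y i)
  have hZ : sc.length ≤ Nat.card Z := by
    refine length_le_ncard (U := (Z : Set (SU n F e))) (Set.toFinite _)
      (fun x s => suHom n F e x = scalar (Fin n) (K.val s)) (fun s hs => ?_) ?_
    · obtain ⟨b1, b2, b3⟩ := h2.2 s hs
      have b4 := K.pw_spec b1
      have b5 : K.val s * K.val s ^ e = 1 := by
        rw [← (b4 e).2, ← K.val_mul _ _ b1 (b4 e).1, b2, K.val_one]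
      have b6 : K.val s ≠ 0 := left_ne_zero_of_mul_eq_one b5
      refine ⟨⟨⟨scalar (Fin n) (K.val s), by
        rw [scalar_apply, det_diagonal, Finset.prod_const, Finset.card_univ, Fintype.card_fin,
          ← (b4 n).2, b3, K.val_one]⟩, mem_SU_of τ hτ _ fun i j => ?_⟩, ⟨?_, ?_⟩, rfl⟩
      · simp only [← hτ, scalar_apply, diagonal_apply, apply_ite τ, map_zero, ite_mul, zero_mul,
          Finset.sum_ite_eq', Finset.mem_univ, if_true, mul_ite, mul_zero]
        rw [hτ, b5]
        simp only [eq_comm]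
      · exact Subgroup.mem_center_iff.mpr fun x => Subtype.ext (Subtype.ext
          (scalar_commute _ (fun _ => Commute.all _ _) _).eq.symm)
      · refine Subgroup.mem_iInf.mpr fun i => eq_of_mapsTo (ι := Unit) (y := fun _ => y i)
          (fun _ => Set.toFinite _) (σ := 1) (fun _ v hv => ?_) ()
        change scalar (Fin n) (K.val s) *ᵥ v ∈ spn K n (B i)
        have : scalar (Fin n) (K.val s) *ᵥ v = K.val s • v := by
          ext j; simp [mulVec_diagonal]
        rw [this]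
        exact Submodule.smul_mem _ _ hv
    · refine (nodup_of_nodupL h2.1).imp_of_mem fun {a b} ha hb hab x e1 e2 => hab ?_
      exact K.inj _ _ (h2.2 a ha).1 (h2.2 b hb).1 (scalar_inj.mp (e1.symm.trans e2))
  obtain ⟨φ, b1, b2⟩ := exists_hom_of hw (y := y) (fun _ => Set.toFinite _) ⊤ (l := l.map Prod.fst)
    (fun p hp => by
      obtain ⟨x, hx, rfl⟩ := List.mem_map.mp hp
      obtain ⟨⟨c1, c2⟩, c3⟩ := h3 x hx
      obtain ⟨g, hg⟩ := exists_su K τ hτ c2
      refine ⟨g, trivial, fun i hi => mulVec_mem K fun b hb => ?_⟩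
      have c4 := Nat.eq_of_beq_eq_true (allL_iff.mp (allLt_iff.mp c3 i hi) b hb)
      obtain ⟨u, c5, c6⟩ := lc_spec K (v := O.mvec w n x.2.1 (Nat.shiftRight b 3))
        (a3 _ ((Enc.isPerm_spec c1).1 i hi)).1
      rw [← c4] at c6
      rw [(hg.mulVec (K.repV_vecOf ((a3 i hi).1 b hb))).unique c6]
      exact c5) htr
    (fun j hj e1 => (a3 j hj).2.resolve_right (by
      rintro ⟨b, hb, e2⟩
      have e3 : K.vecOf n (Nat.shiftRight b 3) ∈ y j := Submodule.subset_span ⟨b, hb, rfl⟩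
      rw [e1] at e3
      have e4 := mulVec_mem K (A := K.matOf n A) (S := ⊥) (fun c hc =>
        ((K.repM_matOf a1).mulVec (K.repV_vecOf ((a3 0 (NeZero.pos N)).1 c hc))).unique
          (a2 c hc ▸ repV_zero K n)) _ e3
      rw [eq_zero_of_repV K (K.repM_matOf a1) (K.repV_vecOf ((a3 j hj).1 b hb)) e4] at e2
      exact absurd e2 (by decide)))
    (Z.subgroupOf ⊤) (fun z hz i => Subgroup.mem_iInf.mp hz.2 i) (by
      rw [Subgroup.card_top, Nat.card_congr (Subgroup.subgroupOfEquivOfLe le_top).toEquiv]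
      exact hc.trans (Nat.mul_le_mul_right _ hZ))
  let ψ := φ.comp (Subgroup.topEquiv (G := SU n F e)).symm.toMonoidHom
  have b3 : Function.Surjective ψ := b1.comp Subgroup.topEquiv.symm.surjective
  have b4 : ψ.ker = Subgroup.center _ := le_antisymm
    (fun x hx => (show Subgroup.topEquiv.symm x ∈ Z.subgroupOf ⊤ from b2 ▸ hx).1) fun x hx => by
      have : ψ x ∈ Subgroup.center _ := Subgroup.mem_center_iff.mpr fun σ => by
        obtain ⟨g, rfl⟩ := b3 σ
        rw [← map_mul, ← map_mul, Subgroup.mem_center_iff.mp hx]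
      rwa [hz] at this
  exact ⟨(QuotientGroup.quotientKerEquivOfSurjective ψ b3).symm.trans
    (QuotientGroup.quotientMulEquivOfEq b4)⟩

/-- The operations of the field with 25 elements. -/
def f25Ops : Ops := FC.quadOps (primeOps 5) 5 4 4

theorem nonempty_f25FC {F : Type*} [Field F] [Fintype F] (h : Fintype.card F = 25) :
    Nonempty (FC F 25 5 f25Ops) := by
  have := charP_of_card (show Nat.Prime 5 by norm_num) 2 h
  obtain ⟨ω, hω⟩ := exists_root_of_prime (F := F) 3 Nat.prime_three (by rw [h]; norm_num)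
  exact ⟨(primeFC F 5 3 (by norm_num) (by norm_num)).quad 5 ω 4 4 (by norm_num) (by norm_num) (by
    show ω ^ 2 = ((4 : ℕ) : F) * ω + ((4 : ℕ) : F)
    have h5 : ((5 : ℕ) : F) = 0 := CharP.cast_eq_zero F 5
    simp only [Finset.sum_range_succ, Finset.sum_range_zero] at hω
    push_cast at h5 ⊢
    linear_combination hω - (ω + 1) * h5) (by norm_num) (by decide +kernel)⟩

end Cfsg.Agent.H9.PR
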