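/-
Orders of stabilisers in the Conway group, and their actions on families of lattice vectors.
-/
import Cfsg.Agent.H9.PRepSU
import Cfsg.Agent.H5.LeeK
import Cfsg.Agent.H5.LeeH

set_option autoImplicit false
set_option maxRecDepth 100000

open scoped Pointwise
open MulAction

namespace Cfsg.Agent.H9.PR

open Cfsg.Agent.H4 Cfsg.Agent.H5.Lee

theorem card_NN : Nat.card NN = 4096 * 244823040 := card_N

theorem bL_val {k : ℕ} (h : k < 19) : (bL k : V) = vec (bc1 k) := lv_val (bc1_chk k h).1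

theorem card_K1 : Nat.card K1 = 908328960 := by
  have h1 := card_eq_of_orbit_eq NN (bL 0) {y | y ∈ L2 ∧ dv 4 y}
    (fun g hg => ⟨smul_mem_L2 g (bL_mem (by norm_num)),
      (dv_smul hg _ _).mpr ((dv_bL (by norm_num) _).mpr dv_chk.1)⟩) fun y hy => by
      rcases orbN' hy.1 with h | h | h
      exacts [h.2.2, absurd hy.2 h.1, absurd hy.2 h.1]
  rw [card_NN, inf_comm, (orb1.ncard (dv 4) (fun k => ∀ i, 4 ∣ vec (bc1 k) i) fun g hg k hk =>
    (dv_smul hg.2 _ _).trans (dv_bL hk _)).trans (show _ = 1104 by decide +kernel)] at h1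
  change _ = _ * Nat.card K1 at h1
  omega

theorem card_St01 : Finite ↥(St (bL 0) ⊓ St (bL 1)) ∧
    Nat.card ↥(St (bL 0) ⊓ St (bL 1)) ≤ 454164480 := by
  have h0 : Finite K1 := Nat.finite_of_card_ne_zero (by rw [card_K1]; norm_num)
  obtain ⟨-, κ, h1, h2⟩ := orb1
  have h3 := le_card_of_subset_orbit K1 (bL 1) {y | y ∈ L2 ∧ κ y = 1} fun y hy => by
    have := (h1 y hy.1).2
    rwa [hy.2] at this
  rw [(h2 1 (by norm_num)).trans (show _ = 2 by decide +kernel), card_K1] at h3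
  have h4 : ((bL 0 + bL 1 : Λ) : V) ∈ stdCross := ⟨gE.pt 0, 8, Or.inl rfl, by
    rw [AddSubgroup.coe_add, bL_val (by norm_num), bL_val (by norm_num)]
    exact dv_chk.2.2.2.2.2.2.2.2⟩
  have h5 : St (bL 0) ⊓ St (bL 1) ≤ K1 ⊓ St (bL 1) := fun g hg => ⟨⟨hg.1, isN_of_one h4 (by
    rw [smul_add', hg.1, hg.2]; exact h4)⟩, hg.2⟩
  have h6 : Finite ↥(K1 ⊓ St (bL 1)) :=
    Finite.of_injective _ (Subgroup.inclusion_injective inf_le_left)
  have h7 := Subgroup.card_le_of_le h5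
  change _ * Nat.card ↥(K1 ⊓ St (bL 1)) ≤ _ at h3
  exact ⟨Finite.of_injective _ (Subgroup.inclusion_injective h5), by omega⟩

theorem card_St_of {K : Subgroup Co0} {v : Λ} (hK : K ≤ St v) {w : Λ} (hw : w ∈ L2) {d : ℤ}
    (hd : dotInt (v : V) (w : V) = d) (h : ∀ y ∈ L2, dotInt (v : V) (y : V) = d →
      ∃ g ∈ K, g • w = y) : Nat.card K = (SD v d).ncard * Nat.card ↥(K ⊓ St w) :=
  card_eq_of_orbit_eq K w _ (fun g hg => (smul_mem_SD' (hK hg)).mpr ⟨hw, hd⟩)
    fun y hy => h y hy.1 hy.2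

theorem card_top_eq : Nat.card (⊤ : Subgroup Co0) = 196560 * Nat.card (St (bL 0)) := by
  have h1 := card_eq_of_orbit_eq ⊤ (bL 0) L2 (fun g _ => smul_mem_L2 g (bL_mem (by norm_num)))
    fun y hy => (trans2 hy).imp fun g hg => ⟨trivial, hg⟩
  rwa [ncard_L2, top_inf_eq] at h1

theorem card_St0 : Finite (St (bL 0)) ∧ Nat.card (St (bL 0)) ≤ 42305421312000 := by
  have h1 := card_St_of (K := St (bL 0)) le_rfl (bL_mem (k := 1) (by norm_num)) (d := 0)
    (by rw [dot_bL (by norm_num) (by norm_num)]; decide +kernel) fun y hy h =>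
      trans_0 (bL_mem (by norm_num)) hy h
  rw [show (SD (bL 0) 0).ncard = 93150 from (ncard_dots (bL_mem (by norm_num))).2.2] at h1
  obtain ⟨h2, h3⟩ := card_St01
  have h4 : 0 < Nat.card ↥(St (bL 0) ⊓ St (bL 1)) := Nat.card_pos
  exact ⟨Nat.finite_of_card_ne_zero (by omega), by omega⟩

instance instFiniteCo0 : Finite Co0 := by
  have h1 := card_top_eq
  have h2 := card_St0.1
  have h4 : 0 < Nat.card (St (bL 0)) := Nat.card_pos
  rw [Subgroup.card_top] at h1
  exact Nat.finite_of_card_ne_zero (by omega)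

theorem card_U6 : Nat.card ↥(St (bL 0) ⊓ St (bL 4)) ≤ 9196830720 := by
  have h1 := card_St_of (K := St (bL 0)) le_rfl (bL_mem (k := 4) (by norm_num)) (d := -16)
    (by rw [dot_bL (by norm_num) (by norm_num)]; decide +kernel) fun y hy h =>
      trans_m16 (bL_mem (by norm_num)) hy h
  rw [show (SD (bL 0) (-16)).ncard = 4600 from (ncard_dots (bL_mem (by norm_num))).1] at h1
  have := card_St0.2
  omega

theorem card_Co3 : Nat.card (St u0) ≤ 495766656000 := by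
  have h1 := card_eq_of_orbit_eq ⊤ u0 L3 (fun g _ => (norm_smul' g u0).trans u0_mem)
    fun y hy => (trans3 hy).imp fun g hg => ⟨trivial, hg⟩
  rw [show L3.ncard = 16773120 from (ncard_val fun x => sqNorm x = 48).trans ncard_48, top_inf_eq,
    card_top_eq] at h1
  have := card_St0.2
  change _ = _ * Nat.card (St u0) at h1
  omega

theorem base_chk : dt U0 V0 = 2072 ∧ dt U0 Z1 = 2072 ∧ dt V0 Z1 = 2064 ∧ dt U0 X1 = 2032 ∧
    dt X1 (bB BB 3) = 2040 := by decide +kernel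

theorem card_U4 : Nat.card KU ≤ 3265920 := by
  have h1 := card_St_of (K := St u0) le_rfl v0_mem (d := 24)
    (by rw [u0, v0, dot_lv U0_chk.1 hV0, base_chk.1]; rfl) fun y hy h => trans_uv u0_mem ⟨hy, h⟩
  have h2 := card_eq_of_orbit_eq (St u0 ⊓ St v0) z1 {y | y ∈ SD u0 24 ∧ dotInt (v0 : V) (y : V) = 16}
    (fun g hg => ⟨(smul_mem_SD' hg.1).mpr ⟨z1_mem, by
      rw [u0, z1, dot_lv U0_chk.1 hZ1, base_chk.2.1]; rfl⟩, by
      rw [dot_smul_fix hg.2, v0, z1, dot_lv hV0 hZ1, base_chk.2.2.1]; rfl⟩) fun y hy => by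
      obtain ⟨g, a, b, c⟩ := tr275 hy.1 hy.2
      exact ⟨g, ⟨a, b⟩, c⟩
  have h3 := (cntU 1 fun a _ => a = 16).trans (show _ = 275 by decide +kernel)
  simp only [one_smul] at h3
  rw [h3] at h2
  rw [ncard_SA] at h1
  have := card_Co3
  change _ = _ * Nat.card KU at h2
  omega

/-- The base point of the orbit of length 352. -/
noncomputable def y3 : Λ := lv (bB BB 3)

theorem y3_mem : y3 ∈ SD u0 (-16) ∧ dotInt (x1 : V) (y3 : V) = -8 :=
  ⟨⟨mem_L2_of (bB_chk 3 (by norm_num)).1, by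
    rw [u0, y3, dot_lv U0_chk.1 (hBB 3 (by norm_num)), (bB_chk 3 (by norm_num)).2]; rfl⟩, by
    rw [x1, y3, dot_lv hX1 (hBB 3 (by norm_num)), base_chk.2.2.2.2]; rfl⟩

theorem card_U3 : Nat.card ↥(St u0 ⊓ St x1 ⊓ St y3) ≤ 126000 := by
  have h1 := card_St_of (K := St u0) le_rfl x1_mem (d := -16)
    (by rw [u0, x1, dot_lv U0_chk.1 hX1, base_chk.2.2.2.1]; rfl) fun y hy h => tr11178 ⟨hy, h⟩
  have h2 := card_eq_of_orbit_eq (St u0 ⊓ St x1) y3
    {y | y ∈ SD u0 (-16) ∧ dotInt (x1 : V) (y : V) = -8}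
    (fun g hg => ⟨(smul_mem_SD' hg.1).mpr y3_mem.1, by rw [dot_smul_fix hg.2, y3_mem.2]⟩)
    fun y hy => by
      obtain ⟨g, a, b, c⟩ := sameHS y3_mem.1 hy.1 (y3_mem.2.trans hy.2.symm)
      exact ⟨g, ⟨a, b⟩, c⟩
  have h3 := (cntB 1 fun _ b => b = -8).trans (show _ = 352 by decide +kernel)
  simp only [one_smul] at h3
  rw [h3] at h2
  rw [ncard_SB] at h1
  have := card_Co3
  change _ = _ * Nat.card ↥(St u0 ⊓ St x1 ⊓ St y3) at h2
  omega

/-- The codes in the table are short lattice vectors, and the set `0` differs from the others. -/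
noncomputable def vecChk (Y : ℕ → List ℕ) (N : ℕ) : Bool :=
  allLt N fun i => band (allL (Y i) fun c => frc c fun c =>
      band (Nat.beq (inL c) 0) (Nat.ble (dt c c) 2128))
    (bor (Nat.beq i 0) (anyL (Y i) fun c => bnot (memL (Y 0) c)))

/-- The automorphism with table `C` fixes `fx` and permutes the sets according to `p`. -/
noncomputable def leeChk (Y : ℕ → List ℕ) (N W : ℕ) (fx : List ℕ) (C p : ℕ) : Bool :=
  frc (genK C) fun KM => band (Nat.beq (lnk KM (fx.map fun x => (x, x))) 0)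
    (allLt N fun i => allL (Y i) fun c => frc (mv KM c) (memL (Y (img W p i))))

theorem frc_eq (n : ℕ) (k : ℕ → Bool) : frc n k = k n := Eq.trans rfl rfl

theorem lee_equiv {N W : ℕ} [NeZero N] (hw : N ≤ 2 ^ W) {Y : ℕ → List ℕ}
    (h1 : vecChk Y N = true) {fx : List ℕ} (K : Subgroup Co0)
    (hK : ∀ g : Co0, (∀ x ∈ fx, g • lv x = lv x) → g ∈ K) {l : List (ℕ × ℕ)}
    (h2 : (allL l fun x => leeChk Y N W fx x.2 x.1) = true)
    (htr : ∀ i, ∃ σ ∈ Subgroup.closure (pset hw (l.map Prod.fst)), σ i = 0)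
    (hc : Nat.card K ≤ Nat.card (Subgroup.closure (pset hw (l.map Prod.fst)))) :
    Nonempty (K ≃* Subgroup.closure (pset hw (l.map Prod.fst))) := by
  have a1 : ∀ i < N, (∀ c ∈ Y i, inL c = 0 ∧ dt c c ≤ 2128) ∧ (i = 0 ∨ ∃ c ∈ Y i, c ∉ Y 0) := by
    intro i hi
    have := allLt_iff.mp h1 i hi
    simpa only [frc_eq, band_eq, bor_eq, Bool.and_eq_true, Bool.or_eq_true, allL_iff, anyL_iff,
      Nat.beq_eq, bnot_eq, Bool.not_eq_true', ← Bool.not_eq_true, memL_iff, Nat.ble_eq] using this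
  obtain ⟨φ, b1, b2⟩ := exists_hom_of hw (y := fun i => lv '' {c | c ∈ Y i})
    (fun i => (List.finite_toSet _).image _) K (l := l.map Prod.fst) (fun p hp => by
      obtain ⟨x, hx, rfl⟩ := List.mem_map.mp hp
      have c1 := allL_iff.mp h2 x hx
      simp only [leeChk, frc_eq, band_eq, Bool.and_eq_true, Nat.beq_eq, allL_iff, allLt_iff,
        memL_iff] at c1
      obtain ⟨c2, c3⟩ := lnk_spec c1.1
      refine ⟨_, hK _ fun x hx => c3 (x, x) (List.mem_map_of_mem hx), ?_⟩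
      rintro i hi _ ⟨c, hc, rfl⟩
      exact ⟨_, c1.2 i hi c hc,
        (c2.smul_lv ((a1 i hi).1 c hc).1 ((a1 i hi).1 c hc).2 rfl).symm⟩) htr
    (fun j hj e => (a1 j hj).2.resolve_right (by
      rintro ⟨c, hc, e2⟩
      obtain ⟨d, hd, e3⟩ : lv c ∈ lv '' {c | c ∈ Y 0} := e ▸ ⟨c, hc, rfl⟩
      have e4 := congrArg (fun x : Λ => enc (x : V)) e3
      simp only [enc_lv ((a1 j hj).1 c hc).1, enc_lv ((a1 0 (NeZero.pos N)).1 d hd).1] at e4
      exact e2 (e4 ▸ hd))) ⊥ (fun z hz i => by rw [Subgroup.mem_bot.mp hz]; exact one_smul _ _)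
    (by rwa [Subgroup.card_bot, one_mul])
  exact ⟨MulEquiv.ofBijective φ ⟨(MonoidHom.ker_eq_bot_iff φ).mp b2, b1⟩⟩

end Cfsg.Agent.H9.PR
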