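import Cfsg.Agent.H9.Sec2
import Cfsg.Agent.H1.Dickson

/-!
The group `Qd(p)`.
-/

set_option autoImplicit false
set_option linter.unusedSectionVars false

namespace Cfsg.Agent.H9

open Subgroup Matrix MatrixGroups H1
open scoped commutatorElement

variable {p : ℕ}

theorem affQd_inj {M N : SL(2, ZMod p)} {v w : Fin 2 → ZMod p} (h : affQd M v = affQd N w) :
    M = N ∧ v = w := by
  have h' : ∀ i j, (affQd M v).1.1 i j = (affQd N w).1.1 i j := fun i j => by rw [h]
  constructor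
  · ext i j
    fin_cases i <;> fin_cases j
    · exact h' 0 0
    · exact h' 0 1
    · exact h' 1 0
    · exact h' 1 1
  · ext i
    fin_cases i
    · exact h' 0 2
    · exact h' 1 2

/-- the linear part of an element of `Qd(p)` -/
noncomputable def piQd (p : ℕ) : qd p →* SL(2, ZMod p) :=
  MonoidHom.mk' (fun q => (exists_affQd q).choose) fun a b => by
    obtain ⟨v, hv⟩ := (exists_affQd a).choose_spec
    obtain ⟨w, hw⟩ := (exists_affQd b).choose_spec
    obtain ⟨u, hu⟩ := (exists_affQd (a * b)).choose_spec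
    have := hu.symm.trans ((congrArg₂ (· * ·) hv hw).trans (affQd_mul _ _ _ _))
    exact (affQd_inj this).1

theorem piQd_affQd (M : SL(2, ZMod p)) (v : Fin 2 → ZMod p) : piQd p (affQd M v) = M := by
  obtain ⟨w, hw⟩ := (exists_affQd (affQd M v)).choose_spec
  exact (affQd_inj hw).1.symm

theorem piQd_surjective : Function.Surjective (piQd p) := fun M => ⟨affQd M 0, piQd_affQd M 0⟩

theorem affQd_one_pow (v : Fin 2 → ZMod p) (n : ℕ) :
    affQd (1 : SL(2, ZMod p)) v ^ n = affQd 1 (n • v) := by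
  induction n with
  | zero => rw [pow_zero, zero_smul, affQd_one]
  | succ n ih => rw [pow_succ, ih, affQd_mul, succ_nsmul]; simp

theorem affQd_conj (M : SL(2, ZMod p)) (w v : Fin 2 → ZMod p) :
    affQd M w * affQd 1 v * (affQd M w)⁻¹ = affQd 1 (M.1 *ᵥ v) := by
  rw [mul_inv_eq_iff_eq_mul, affQd_mul, affQd_mul]
  simp [add_comm]

/-- the upper unitriangular matrices -/
def uuSub (p : ℕ) : Subgroup SL(2, ZMod p) where
  carrier := {M | ∃ c, M = uu c}
  one_mem' := ⟨0, uu_zero.symm⟩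
  mul_mem' := by
    rintro _ _ ⟨c, rfl⟩ ⟨d, rfl⟩
    exact ⟨_, uu_mul c d⟩
  inv_mem' := by
    rintro _ ⟨c, rfl⟩
    exact ⟨_, uu_inv c⟩

/-- a Sylow subgroup of `Qd(p)` -/
noncomputable def qdSyl (p : ℕ) : Subgroup (qd p) := (uuSub p).comap (piQd p)

theorem mem_qdSyl {q : qd p} : q ∈ qdSyl p ↔ ∃ c v, q = affQd (uu c) v := by
  constructor
  · rintro ⟨c, hc⟩
    obtain ⟨M, v, rfl⟩ := exists_affQd q
    rw [piQd_affQd] at hc
    exact ⟨c, v, by rw [hc]⟩
  · rintro ⟨c, v, rfl⟩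
    exact ⟨c, piQd_affQd _ _⟩

theorem mem_ker_piQd {q : qd p} : q ∈ (piQd p).ker ↔ ∃ v, q = affQd 1 v := by
  constructor
  · intro hc
    obtain ⟨M, v, rfl⟩ := exists_affQd q
    rw [MonoidHom.mem_ker, piQd_affQd] at hc
    exact ⟨v, by rw [hc]⟩
  · rintro ⟨v, rfl⟩
    exact piQd_affQd _ _

theorem isPGroup_uuSub : IsPGroup p (uuSub p) := by
  rw [isPGroup_iff_mem]
  rintro _ ⟨c, rfl⟩
  exact ⟨1, by rw [pow_one, uu_pow]; simp [uu_zero]⟩

theorem isPGroup_ker_piQd : IsPGroup p (piQd p).ker := by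
  rw [isPGroup_iff_mem]
  intro q hq
  obtain ⟨v, rfl⟩ := mem_ker_piQd.1 hq
  refine ⟨1, ?_⟩
  rw [pow_one, affQd_one_pow, ← affQd_one]
  congr 1
  ext i
  simp

theorem isPGroup_qdSyl : IsPGroup p (qdSyl p) :=
  isPGroup_uuSub.comap_of_ker_isPGroup _ isPGroup_ker_piQd

theorem qdSyl_classTwo : qdSyl p ∈ classTwoSubgroups (qd p) := by
  show ⁅qdSyl p, qdSyl p⁆ ≤ _
  rw [commutator_le]
  intro a ha b hb
  obtain ⟨c, v, rfl⟩ := mem_qdSyl.1 ha
  obtain ⟨d, w, rfl⟩ := mem_qdSyl.1 hb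
  have : ⁅affQd (uu c) v, affQd (uu d) w⁆ = affQd 1 ![c * w 1 - d * v 1, 0] := by
    rw [commutatorElement_def, mul_inv_eq_iff_eq_mul, mul_inv_eq_iff_eq_mul]
    simp only [affQd_mul, one_mul, uu_mul, add_comm c d]
    congr 1
    ext i
    fin_cases i
    · simp [coe_uu, mulVec_fin_two, vecHead, vecTail]; ring
    · simp [coe_uu, mulVec_fin_two, vecHead, vecTail]; ring
  rw [this]
  intro x hx
  obtain ⟨e, u, rfl⟩ := mem_qdSyl.1 hx
  simp only [affQd_mul, one_mul, mul_one]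
  congr 1
  ext i
  fin_cases i <;> simp [coe_uu, mulVec_fin_two] <;> ring

theorem neg_one_ne_one_zmod3 : ¬ (-1 : ZMod 3) = 1 := by decide

variable [hp : Fact p.Prime]

instance : Finite (qd p) := inferInstance

theorem not_isPGroup_SL2 : ¬ IsPGroup p SL(2, ZMod p) := by
  intro h
  obtain ⟨k, hk⟩ := h (uu 1 * ll (-1))
  have h6 : (uu (1 : ZMod p) * ll (-1)) ^ 6 = 1 := by
    ext i j
    fin_cases i <;> fin_cases j <;> simp [pow_succ, coe_uu, coe_ll]
  have h2 : (uu (1 : ZMod p) * ll (-1)) ^ 2 ≠ 1 := by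
    intro h
    have := congrArg (fun M : SL(2, ZMod p) => M.1 0 1) h
    simp [pow_succ, coe_uu, coe_ll] at this
  by_cases hp3 : p = 3
  · subst hp3
    have h3 : (uu (1 : ZMod 3) * ll (-1)) ^ 3 ≠ 1 := by
      intro h
      have := congrArg (fun M : SL(2, ZMod 3) => M.1 0 0) h
      simp [pow_succ, coe_uu, coe_ll] at this
      exact neg_one_ne_one_zmod3 this
    apply h3
    have h4 : ((uu (1 : ZMod 3) * ll (-1)) ^ 3) ^ 2 = 1 := by rw [← pow_mul]; exact h6
    have h5 : ((uu (1 : ZMod 3) * ll (-1)) ^ 3) ^ 3 ^ k = 1 := by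
      rw [← pow_mul, mul_comm, pow_mul, hk, one_pow]
    exact eq_one_of_pow_of_coprime h5
      (Nat.Coprime.coprime_dvd_left (orderOf_dvd_of_pow_eq_one h4) (by norm_num))
  · apply h2
    have h4 : ((uu (1 : ZMod p) * ll (-1)) ^ 2) ^ 3 = 1 := by rw [← pow_mul]; exact h6
    have h5 : ((uu (1 : ZMod p) * ll (-1)) ^ 2) ^ p ^ k = 1 := by
      rw [← pow_mul, mul_comm, pow_mul, hk, one_pow]
    exact eq_one_of_pow_of_coprime h5
      (Nat.Coprime.coprime_dvd_left (orderOf_dvd_of_pow_eq_one h4)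
        ((Nat.coprime_primes Nat.prime_three hp.out).2 (Ne.symm hp3)))

theorem eq_top_of_uuSub_le {H : Subgroup SL(2, ZMod p)} (h : uuSub p ≤ H) {M : SL(2, ZMod p)}
    (hM : M ∈ H) (h0 : M 1 0 ≠ 0) : H = ⊤ := by
  refine eq_top_of_uu_ll (h ⟨1, rfl⟩) ?_
  have e := eq_uu_ll_uu M (mul_inv_cancel₀ h0)
  have h1 : ll (M 1 0) ∈ H := by
    rw [e] at hM
    exact (H.mul_mem_cancel_left (h ⟨_, rfl⟩)).1 ((H.mul_mem_cancel_right (h ⟨_, rfl⟩)).1 hM)
  have := pow_mem h1 (M 1 0)⁻¹.val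
  rwa [ll_pow, ZMod.natCast_zmod_val, inv_mul_cancel₀ h0] at this

theorem isSylowIn_uuSub : IsSylowIn p (uuSub p) ⊤ := by
  refine isSylowIn_of_maximal isPGroup_uuSub le_top fun Q hQ hle _ M hM => ?_
  by_cases h0 : M 1 0 = 0
  · obtain ⟨k, hk⟩ := isPGroup_iff_mem.1 hQ M hM
    have h1 : ∀ n : ℕ, (M.1 ^ n) 1 0 = 0 ∧ (M.1 ^ n) 0 0 = M.1 0 0 ^ n := by
      intro n
      have h0' : M.1 1 0 = 0 := h0
      induction n with
      | zero => simp
      | succ n ih =>
        rw [pow_succ, pow_succ]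
        constructor
        · simp [mul_apply, Fin.sum_univ_two, h0', ih.1]
        · simp [mul_apply, Fin.sum_univ_two, h0', ih.2]
    have h2 := (h1 (p ^ k)).2
    have hk' : M.1 ^ p ^ k = 1 := by
      have := congrArg (fun N : SL(2, ZMod p) => N.1) hk
      simpa using this
    rw [hk', ZMod.pow_card_pow] at h2
    have h3 : M 0 0 = 1 := by simpa using h2.symm
    have hd := M.det_coe
    rw [det_fin_two, h0, h3] at hd
    refine ⟨M 0 1, ?_⟩
    ext i j
    fin_cases i <;> fin_cases j <;> simp [coe_uu, h0, h3]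
    simpa using hd
  · exfalso
    rw [eq_top_of_uuSub_le hle hM h0] at hQ
    exact not_isPGroup_SL2 (hQ.of_equiv topEquiv)

theorem isSylowIn_qdSyl : IsSylowIn p (qdSyl p) ⊤ := by
  refine ⟨le_top, isPGroup_qdSyl, ?_⟩
  rw [relIndex_top_right, qdSyl, index_comap_of_surjective _ piQd_surjective,
    ← relIndex_top_right]
  exact isSylowIn_uuSub.not_dvd

theorem not_fctl_qd : ¬ FCtl (normalizer (qdSyl p : Set (qd p)) : Subgroup (qd p)) (qdSyl p) ⊤ := by
  intro h
  have hV : (piQd p).ker ≤ qdSyl p := ker_le_comap _ _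
  obtain ⟨n, hn, he⟩ := (h _ hV (affQd (ll 1) 0) trivial
    (by rwa [cj_eq_of_normal])).exists_mem le_rfl
  obtain ⟨M, w, rfl⟩ := exists_affQd n
  have h1 : M = ll 1 := by
    ext i j
    have := he (affQd 1 (Pi.single j 1)) (mem_ker_piQd.2 ⟨_, rfl⟩)
    rw [affQd_conj, affQd_conj] at this
    have := congrFun (affQd_inj this).2 i
    simpa using this
  subst h1
  obtain ⟨c, hc⟩ := conj_mem_of_mem_normalizer hn (mem_qdSyl.2 ⟨1, 0, rfl⟩)
  simp only [map_mul, map_inv, piQd_affQd, ll_inv] at hc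
  have := congrArg (fun M : SL(2, ZMod p) => M.1 1 0) hc
  simp [coe_uu, coe_ll] at this

end Cfsg.Agent.H9
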