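import Cfsg.Agent.H9.Stable

/-!
More on sections.
-/

set_option autoImplicit false
set_option linter.unusedSectionVars false

namespace Cfsg.Agent.H9

open Subgroup

variable {G X : Type*} [Group G] [Group X] {p : ℕ}

theorem Sec.of_injective (f : X →* G) (hf : Function.Injective f) : Sec X G :=
  ⟨f.range, (MonoidHom.ofInjective hf).symm.toMonoidHom, (MonoidHom.ofInjective hf).symm.surjective⟩

theorem Sec.of_equiv (e : X ≃* G) : Sec X G := Sec.of_injective e.toMonoidHom e.injective

theorem Sec.of_le {Y H : Subgroup G} (h : Y ≤ H) : Sec Y H :=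
  Sec.of_injective (inclusion h) (inclusion_injective h)

theorem Sec.map (f : G →* X) (H : Subgroup G) : Sec (H.map f) H :=
  Sec.of_surjective _ (f.subgroupMap_surjective H)

theorem Sec.of_le_map {f : G →* X} {H : Subgroup G} {Y : Subgroup X} (h : Y ≤ H.map f) :
    Sec Y H := (Sec.of_le h).trans (Sec.map f H)

theorem Sec.of_map_le {f : X →* G} (hf : Function.Injective f) {H : Subgroup G} {Y : Subgroup X}
    (h : Y.map f ≤ H) : Sec Y H :=
  (Sec.of_equiv (Y.equivMapOfInjective f hf)).trans (Sec.of_le h)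

variable [Finite G] [Fact p.Prime]

/-- `p`-local subgroups of a quotient are images of `p`-local subgroups. -/
theorem exists_normalizer_le_map {f : G →* X} (hf : Function.Surjective f) {P : Subgroup X}
    (hP : IsPGroup p P) : ∃ P₀ : Subgroup G, IsPGroup p P₀ ∧ P₀.map f = P ∧
      normalizer (P : Set X) ≤ (normalizer (P₀ : Set G)).map f := by
  have := Finite.of_surjective f hf
  obtain ⟨P₀, hP₀⟩ := exists_isSylowIn p (P.comap f)
  have h1 := hP₀.map f
  rw [Subgroup.map_comap_eq_self_of_surjective hf] at h1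
  have h2 : P = P₀.map f := h1.eq_of_le hP le_rfl h1.le
  refine ⟨P₀, hP₀.isPGroup, h2.symm, fun y hy => ?_⟩
  obtain ⟨x, rfl⟩ := hf y
  obtain ⟨n, hn, m, hm, rfl⟩ := hP₀.frattini (Subgroup.le_normalizer_comap f hy)
  obtain ⟨a, ha, he⟩ : f n ∈ P₀.map f := h2 ▸ hn
  exact ⟨a * m, mul_mem (le_normalizer ha) hm, by simp [he]⟩

theorem Sec.exists_normalizer (h : Sec X G) {P : Subgroup X} (hP : IsPGroup p P) (h0 : P ≠ ⊥) :
    ∃ P₀ : Subgroup G, IsPGroup p P₀ ∧ P₀ ≠ ⊥ ∧
      Sec (normalizer (P : Set X)) (normalizer (P₀ : Set G)) := by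
  obtain ⟨K, f, hf⟩ := h
  obtain ⟨P₀, h1, h2, h3⟩ := exists_normalizer_le_map hf hP
  refine ⟨P₀.map K.subtype, h1.map _, ?_, (Sec.of_le_map h3).trans
    (Sec.of_map_le K.subtype_injective (Subgroup.le_normalizer_map _))⟩
  rw [Ne, Subgroup.map_eq_bot_iff_of_injective _ K.subtype_injective]
  rintro rfl
  exact h0 (by rw [← h2, Subgroup.map_bot])

end Cfsg.Agent.H9
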