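import Mathlib
import Cfsg.Prelude.Def_Characters

/-! An abstract construction of Steinberg characters from a chamber system. -/

set_option autoImplicit false

namespace Cfsg.Agent.H9.St

open Subgroup
open scoped Pointwise

universe u

theorem isIrr_of_rep {G : Type u} [Group G] {V : Type*} [AddCommGroup V] [Module ℂ V]
    [FiniteDimensional ℂ V] (ρ : Representation ℂ G V) (h : ρ.IsIrreducible) :
    IsIrrCharacter G ρ.character := by
  let e := (Module.finBasis ℂ V).equivFun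
  let σ : Representation ℂ G (Fin (Module.finrank ℂ V) → ℂ) :=
    { toFun g := e.conj (ρ g)
      map_one' := by rw [map_one]; exact e.conj_id
      map_mul' a b := by rw [map_mul]; exact e.conj_comp _ _ }
  have hσ : ∀ g v, σ g (e v) = e (ρ g v) := fun g v => by simp [σ, LinearEquiv.conj_apply]
  let F : Subrepresentation σ → Subrepresentation ρ := fun M =>
    ⟨M.toSubmodule.comap e.toLinearMap, fun g v hv => by
      have := M.apply_mem_toSubmodule g hv
      rwa [LinearEquiv.coe_coe, hσ] at this⟩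
  refine ⟨_, σ, ?_, funext fun g => LinearMap.trace_conj' _ e⟩
  have h0 : (⊥ : Submodule ℂ V) ≠ ⊤ := fun e' =>
    h.bot_ne_top (Subrepresentation.toSubmodule_injective e')
  haveI : Nontrivial (Subrepresentation σ) := ⟨⊥, ⊤, fun e' => h0 (by
    have : (⊥ : Submodule ℂ _).comap e.toLinearMap = (⊤ : Submodule ℂ _).comap e.toLinearMap :=
      congrArg (fun M => (F M).toSubmodule) e'
    simpa using this)⟩
  refine ⟨fun M => (h.eq_bot_or_eq_top (F M)).imp (fun a => ?_) fun a => ?_⟩ <;>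
  · apply Subrepresentation.toSubmodule_injective
    have := congrArg (fun M => M.toSubmodule.map e.toLinearMap) a
    simp only [F, Submodule.map_comap_eq_of_surjective e.surjective] at this
    rw [this]
    first | exact Submodule.map_bot _ | exact (Submodule.map_top _).trans e.range

/-- the conclusion: a `p`-defect zero character of degree the order of a Sylow subgroup -/
def HasSt (p : ℕ) (G : Type u) [Group G] : Prop :=
  ∃ χ : G → ℂ, IsIrrCharacter G χ ∧ ∀ P : Sylow p G, χ 1 = Nat.card P ∧ ∀ x, x ∈ P → x ≠ 1 → χ x = 0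

/-- the axioms -/
structure Ax (p : ℕ) (G : Type u) [Group G] {C : Type*} [MulAction G C] (S : Submodule ℂ (C → ℂ))
    (Opp : C → C → Prop) : Prop where
  ne : Nonempty C
  inv : ∀ (g : G), ∀ f ∈ S, (fun c => f (g • c)) ∈ S
  opp : ∀ (g : G) c d, Opp c d → Opp (g • c) (g • d)
  inj : ∀ c, ∀ f ∈ S, (∀ d, Opp c d → f d = 0) → f = 0
  apt : ∀ c d, Opp c d → ∃ f ∈ S, f d ≠ 0 ∧ ∀ d', Opp c d' → d' ≠ d → f d' = 0
  ex : ∀ c, ∃ d, Opp c d
  free : ∀ (g : G) k c d, g ^ p ^ k = 1 → Opp c d → g • c = c → g • d = d → g = 1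
  uni : ∀ c, ∃ U : Subgroup G, IsPGroup p U ∧ (∀ u ∈ U, u • c = c) ∧
    (∀ d d', Opp c d → Opp c d' → ∃ u ∈ U, u • d = d') ∧
    ∀ h : G, (∀ u ∈ U, u • h • c = h • c) → h • c = c

variable {p : ℕ} [hp : Fact p.Prime] {G : Type u} [Group G] [Finite G] {C : Type*} [Finite C]
  [MulAction G C] {S : Submodule ℂ (C → ℂ)} {Opp : C → C → Prop}

theorem Ax.exists_sylow (h : Ax p G S Opp) (c : C) : ∃ P : Sylow p G, (∀ u ∈ P, u • c = c) ∧
    ∀ d d', Opp c d → Opp c d' → ∃ u ∈ P, u • d = d' := by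
  obtain ⟨U, h1, h2, h3, h4⟩ := h.uni c
  obtain ⟨P, hP⟩ := h1.exists_le_sylow
  refine ⟨P, ?_, fun d d' a b => let ⟨u, e, f⟩ := h3 d d' a b; ⟨u, hP e, f⟩⟩
  by_contra e
  have a1 : (MulAction.stabilizer G c).subgroupOf P < ⊤ := lt_top_iff_ne_top.2 fun e' =>
    e (subgroupOf_eq_top.1 e')
  haveI := P.isPGroup'.isNilpotent
  obtain ⟨x, hx, hx'⟩ := SetLike.exists_of_lt (normalizerCondition_of_isNilpotent _ a1)
  refine hx' (h4 x fun u hu => ?_)
  have := (mem_normalizer_iff''.1 hx ⟨u, hP hu⟩).1 (h2 u hu)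
  rw [mem_subgroupOf, MulAction.mem_stabilizer_iff] at this
  simpa [mul_smul, inv_smul_eq_iff] using this

/-- the Steinberg representation -/
def Ax.rep (h : Ax p G S Opp) : Representation ℂ G S where
  toFun g := ⟨⟨fun f => ⟨fun c => f.1 (g⁻¹ • c), h.inv _ _ f.2⟩, fun _ _ => rfl⟩, fun _ _ => rfl⟩
  map_one' := by ext; simp
  map_mul' a b := by ext; simp [mul_smul]

theorem Ax.rep_apply (h : Ax p G S Opp) (g : G) (f : S) (c : C) : (h.rep g f).1 c = f.1 (g⁻¹ • c) :=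
  rfl

theorem Ax.exists_equiv (h : Ax p G S Opp) {c : C} {P : Subgroup G} (hP : IsPGroup p P)
    (h1 : ∀ u ∈ P, u • c = c)
    (h2 : ∀ d d', Opp c d → Opp c d' → ∃ u ∈ P, u • d = d') :
    ∃ e : S ≃ₗ[ℂ] (P → ℂ), ∀ (g : P) f u, e (h.rep g f) u = e f (g⁻¹ * u) := by
  classical
  obtain ⟨d, hd⟩ := h.ex c
  have a1 : ∀ u : P, Opp c ((u : G) • d) := fun u => by simpa [h1 u u.2] using h.opp u c d hd
  let r : S →ₗ[ℂ] (P → ℂ) := ⟨⟨fun f u => f.1 ((u : G) • d), fun _ _ => rfl⟩, fun _ _ => rfl⟩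
  refine ⟨.ofBijective r ⟨(injective_iff_map_eq_zero _).2 fun f hf => Subtype.ext
    (h.inj c _ f.2 fun d' a => ?_), ?_⟩, fun g f u => congrArg f.1 (mul_smul _ _ _).symm⟩
  · obtain ⟨u, hu, rfl⟩ := h2 d d' hd a
    exact congrFun hf ⟨u, hu⟩
  · rw [← LinearMap.range_eq_top, eq_top_iff, ← (Pi.basisFun ℂ P).span_eq, Submodule.span_le]
    rintro _ ⟨u, rfl⟩
    obtain ⟨f, hf, b1, b2⟩ := h.apt c _ (a1 u)
    refine ⟨(f ((u : G) • d))⁻¹ • ⟨f, hf⟩, funext fun v => ?_⟩
    by_cases e : v = u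
    · simp [r, e, b1]
    · have : (v : G) • d ≠ (u : G) • d := fun e' => e (by
        obtain ⟨k, hk⟩ := hP (u⁻¹ * v)
        have := h.free (u⁻¹ * v : P) k c d (by exact_mod_cast congrArg Subtype.val hk) hd
          (h1 _ (u⁻¹ * v).2) (by simp [mul_smul, e'])
        exact (inv_mul_eq_one.1 (Subtype.ext this)).symm)
      simp [r, e, b2 _ (a1 v) this]

theorem mem_smul_sylow {P : Sylow p G} {g x : G} (h : x ∈ g • P) : g⁻¹ * x * g ∈ P := by
  have : x ∈ MulAut.conj g • (P : Subgroup G) := h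
  change _ ∈ (P : Subgroup G)
  simpa [mem_pointwise_smul_iff_inv_smul_mem] using this

theorem Ax.exists_fixed (h : Ax p G S Opp) (P : Sylow p G) {M : Subrepresentation h.rep}
    (hM : M ≠ ⊥) : ∃ f ∈ M, f ≠ 0 ∧ ∀ u ∈ P, h.rep u f = f := by
  classical
  obtain ⟨f, hf, h0⟩ := (Submodule.ne_bot_iff M.toSubmodule).1 fun e =>
    hM (Subrepresentation.toSubmodule_injective e)
  obtain ⟨c, hc⟩ := Function.ne_iff.1 fun e : f.1 = 0 => h0 (Subtype.ext e)
  obtain ⟨Q, h1, -⟩ := h.exists_sylow c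
  obtain ⟨g, rfl⟩ := MulAction.exists_smul_eq G Q P
  haveI := Fintype.ofFinite Q
  have a1 : ∀ u ∈ Q, h.rep u (∑ v : Q, h.rep v f) = ∑ v : Q, h.rep v f := fun u hu => by
    rw [map_sum]
    exact Fintype.sum_equiv (Equiv.mulLeft (⟨u, hu⟩ : Q)) _ _ fun v => by simp
  refine ⟨h.rep g (∑ v : Q, h.rep v f), M.apply_mem_toSubmodule g
    (M.toSubmodule.sum_mem fun v _ => M.apply_mem_toSubmodule _ hf), fun e => ?_, fun u hu => ?_⟩
  · have := congrArg (fun x : S => x.1 (g • c)) e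
    simp only [h.rep_apply, inv_smul_smul, Submodule.coe_sum, Finset.sum_apply] at this
    rw [Finset.sum_congr rfl fun v _ => by rw [h1 _ (inv_mem v.2)]] at this
    simp at this
    exact hc this
  · have := a1 (g⁻¹ * u * g) (mem_smul_sylow hu)
    nth_rewrite 2 [← this]
    rw [← Module.End.mul_apply, ← Module.End.mul_apply, ← map_mul, ← map_mul]
    congr 2; group

theorem Ax.hasSt (h : Ax p G S Opp) : HasSt p G := by
  classical
  obtain ⟨c⟩ := h.ne
  obtain ⟨P, h1, h2⟩ := h.exists_sylow c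
  obtain ⟨e, he⟩ := h.exists_equiv P.isPGroup' h1 h2
  haveI := Fintype.ofFinite (P : Subgroup G)
  have a1 : ∀ f : S, (∀ u ∈ P, h.rep u f = f) → ∀ u, e f u = e f 1 := fun f hf u => by
    rw [← hf u u.2, he, inv_mul_cancel, hf u u.2]
  have a2 : ∀ f : S, (∀ u ∈ P, h.rep u f = f) → f ≠ 0 → e f 1 ≠ 0 := fun f hf h0 e' =>
    h0 (e.map_eq_zero_iff.1 (funext fun u => (a1 f hf u).trans e'))
  haveI : Nontrivial (Subrepresentation h.rep) := ⟨⊥, ⊤, fun e' => by
    haveI := e.toEquiv.nontrivial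
    exact bot_ne_top (α := Submodule ℂ S) (congrArg Subrepresentation.toSubmodule e')⟩
  refine ⟨_, isIrr_of_rep h.rep ⟨fun M => ?_⟩, fun Q => ⟨?_, fun x hx hx1 => ?_⟩⟩
  · by_contra! e'
    obtain ⟨N, hN⟩ := exists_isCompl M
    obtain ⟨f, b1, b2, b3⟩ := h.exists_fixed P e'.1
    obtain ⟨f', c1, c2, c3⟩ := h.exists_fixed P (M := N) fun e'' => e'.2 (by
      simpa [e''] using hN.sup_eq_top)
    have d1 : f = (e f 1 / e f' 1) • f' := e.injective (funext fun u => by
      rw [map_smul, Pi.smul_apply, a1 f b3 u, a1 f' c3 u, smul_eq_mul, div_mul_cancel₀ _ (a2 _ c3 c2)])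
    have d2 : f ∈ (M ⊓ N).toSubmodule := ⟨b1, d1 ▸ N.toSubmodule.smul_mem _ c1⟩
    rw [hN.inf_eq_bot] at d2
    exact b2 d2
  · rw [Representation.char_one, e.finrank_eq, Module.finrank_fintype_fun_eq_card,
      ← Nat.card_eq_fintype_card]
    exact congrArg _ (Nat.card_congr (P.equiv Q).toEquiv)
  · obtain ⟨g, rfl⟩ := MulAction.exists_smul_eq G P Q
    have hy : g⁻¹ * x * g ∈ P := mem_smul_sylow hx
    rw [← h.rep.char_conj x g⁻¹, inv_inv, Representation.character, ← LinearMap.trace_conj' _ e,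
      LinearMap.trace_eq_matrix_trace ℂ (Pi.basisFun ℂ (P : Subgroup G)), Matrix.trace]
    refine Finset.sum_eq_zero fun u _ => ?_
    have := he ⟨_, hy⟩ (e.symm (Pi.single u 1)) u
    simp only [Matrix.diag, LinearMap.toMatrix_apply, Pi.basisFun_apply, Pi.basisFun_repr,
      LinearEquiv.conj_apply_apply]
    rw [this, e.apply_symm_apply, Pi.single_eq_of_ne]
    simpa [Subtype.ext_iff, mul_assoc, inv_mul_eq_one] using hx1

theorem Ax.hasSt_center (h : Ax p G S Opp) : HasSt p (G ⧸ center G) := by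
  have a1 : center G ≤ (MulAction.toPermHom G C).ker := fun z hz => Equiv.ext fun c => by
    obtain ⟨U, -, h2, -, h4⟩ := h.uni c
    exact h4 z fun u hu => by rw [← mul_smul, mem_center_iff.1 hz, mul_smul, h2 u hu]
  letI : MulAction (G ⧸ center G) C := MulAction.compHom C (QuotientGroup.lift _ _ a1)
  have a2 : ∀ (g : G) (c : C), (g : G ⧸ center G) • c = g • c := fun _ _ => rfl
  refine Ax.hasSt (S := S) (Opp := Opp) ⟨h.ne, fun g => ?_, fun g => ?_, h.inj, h.apt, h.ex,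
    fun g k c d b1 b2 b3 b4 => ?_, fun c => ?_⟩
  · obtain ⟨g, rfl⟩ := QuotientGroup.mk_surjective g; exact h.inv g
  · obtain ⟨g, rfl⟩ := QuotientGroup.mk_surjective g; exact h.opp g
  · obtain ⟨g, rfl⟩ := QuotientGroup.mk_surjective g
    obtain ⟨j, m, hm, e⟩ := Nat.exists_eq_pow_mul_and_not_dvd (orderOf_pos g).ne' p hp.out.ne_one
    have c1 := h.free (g ^ m) j c d (by rw [← pow_mul, mul_comm, ← e, pow_orderOf_eq_one]) b2
      (pow_mem (show g ∈ MulAction.stabilizer G c from b3) m)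
      (pow_mem (show g ∈ MulAction.stabilizer G d from b4) m)
    exact orderOf_eq_one_iff.1 (Nat.eq_one_of_dvd_coprimes
      ((hp.out.coprime_iff_not_dvd.2 hm).pow_left k) (orderOf_dvd_of_pow_eq_one b1)
      (orderOf_dvd_of_pow_eq_one (by rw [← QuotientGroup.mk_pow, c1, QuotientGroup.mk_one])))
  · obtain ⟨U, h1, h2, h3, h4⟩ := h.uni c
    refine ⟨U.map (QuotientGroup.mk' _), h1.map _, ?_, fun d d' a b =>
      let ⟨u, e, f⟩ := h3 d d' a b; ⟨u, mem_map_of_mem _ e, f⟩, fun g hg => ?_⟩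
    · rintro _ ⟨u, hu, rfl⟩; exact h2 u hu
    · obtain ⟨g, rfl⟩ := QuotientGroup.mk_surjective g
      exact h4 g fun u hu => hg _ (mem_map_of_mem _ hu)

end Cfsg.Agent.H9.St
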