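import Cfsg.Agent.H9.StOrth

/-! The Steinberg character of the commutator subgroup of `O₄⁺(2)`. -/

set_option autoImplicit false

namespace Cfsg.Agent.H9.St

open Module QuadraticMap H7

theorem hasSt_exc {H F V : Type*} [Group H] [Field F] [AddCommGroup V] [Module F V]
    [MulAction H V] [Finite V] [Finite H] [FaithfulSMul H V] [FiniteDimensional F V]
    {Q : QuadraticForm F V} (hQ : ND Q) (φ : H →* OG Q) (act : ∀ g x, g • x = (φ g).1 x)
    (mem : ∀ g, φ g ∈ commutator (OG Q)) (sur : ∀ s ∈ commutator (OG Q), ∃ g, φ g = s)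
    (R : V → V → Prop) (hR : ∀ u v, R u v ↔ u = v ∨ polar Q u v ≠ 0) (h01 : ∀ x : F, x ≠ 0 → x = 1)
    (f1 : ∀ u v w, Q u ≠ 0 → Q v ≠ 0 → Q w ≠ 0 → (R u w ↔ (R u v ↔ R v w)))
    (f2 : ∀ u v w, Q u ≠ 0 → Q v ≠ 0 → Q w ≠ 0 → R u v → R u w → u ≠ v → u ≠ w → w = v ∨ w = v - u)
    (f3 : ∀ u, Q u ≠ 0 → ∃ v w, Q v ≠ 0 ∧ Q w ≠ 0 ∧ R u v ∧ u ≠ v ∧ ¬ R u w)
    (f4 : ∀ u, ∃ v w, Q v ≠ 0 ∧ (Q w ≠ 0 ∨ w = 0) ∧ u = v + w) :
    HasSt 2 (H ⧸ Subgroup.center H) := by
  classical
  obtain ⟨c₀, -, h0, -⟩ := f4 0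
  have inv (g : OG Q) (u v) : R (g.1 u) (g.1 v) ↔ R u v := by simp [hR]
  have rr (u) : R u u := (hR u u).2 (.inl rfl)
  have rs {u v} (h : R u v) : R v u := by rwa [hR, eq_comm, B_comm, ← hR]
  let s : OG Q →* ℤˣ := MonoidHom.mk' (fun g => if R c₀ (g.1 c₀) then 1 else -1) fun g h => by
    have := f1 c₀ (g.1 c₀) (g.1 (h.1 c₀)) h0 (by simpa using h0) (by simpa using h0)
    rw [inv] at this
    by_cases a : R c₀ (g.1 c₀) <;> by_cases b : R c₀ (h.1 c₀) <;> simp_all
  let N : SubMulAction (OG Q) V := ⟨{v | Q v ≠ 0}, fun g v h => by simpa [Subgroup.smul_def] using h⟩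
  let C : SubMulAction H V := ⟨{v | Q v ≠ 0 ∧ R c₀ v}, fun g v h => ⟨by simpa [act] using h.1, by
    have : R c₀ ((φ g).1 c₀) := by simpa [s] using Abelianization.commutator_subset_ker s (mem g)
    rw [act, f1 c₀ ((φ g).1 c₀) _ h0 (by simpa using h0) (by simpa using h.1), inv]
    exact iff_of_true this h.2⟩⟩
  have rc (c d : C) : R c d := (f1 _ c₀ _ c.2.1 h0 d.2.1).2 (iff_of_true (rs c.2.2) d.2.2)
  haveI := Fintype.ofFinite C
  haveI := Fintype.ofFinite N
  refine Ax.hasSt_center (S := LinearMap.ker (∑ c : C, LinearMap.proj (R := ℂ) c)) (Opp := (· ≠ ·))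
    ⟨⟨⟨c₀, h0, rr _⟩⟩, fun g f hf => ?_, fun g c d h => by simpa using h, fun c f hf h => ?_,
      fun c d h => ⟨Pi.single d 1 - Pi.single c 1, by simp, by simp [h.symm], fun d' a b => by
        simp [a.symm, b]⟩, fun c => ?_, fun g k c d hg h a b => ?_, fun c => ?_⟩
  · simpa using (Equiv.sum_comp (MulAction.toPerm g) f).trans (by simpa using hf)
  · have : f c = 0 := (Finset.sum_eq_single_of_mem c (Finset.mem_univ c)
      fun d _ e => h d e.symm).symm.trans (by simpa using hf)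
    exact funext fun d => if e : c = d then e ▸ this else h d e
  · obtain ⟨v, -, a, -, b, e, -⟩ := f3 c c.2.1
    exact ⟨⟨v, a, (f1 _ c _ h0 c.2.1 a).2 (iff_of_true c.2.2 b)⟩, fun q => e (congrArg Subtype.val q)⟩
  · let σ := MulAction.toPermHom (OG Q) N (φ g)
    have a1 : Equiv.Perm.sign σ = 1 := Abelianization.commutator_subset_ker
      (Equiv.Perm.sign.comp (MulAction.toPermHom (OG Q) N)) (mem g)
    have a' : (φ g).1 c = c := (act g c).symm.trans (congrArg Subtype.val a)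
    have b' : (φ g).1 d = d := (act g d).symm.trans (congrArg Subtype.val b)
    obtain ⟨-, x, -, x1, -, -, x2⟩ := f3 c c.2.1
    obtain ⟨y, -, y1, -, y2, y3, -⟩ := f3 x x1
    have a2 : σ.support.card ≤ 3 := (Finset.card_le_card_of_injOn (t := {x, y, y - x}) Subtype.val
      (fun v hv => ?_) Subtype.val_injective.injOn).trans Finset.card_le_three
    · have a3 : σ = 1 := by
        by_contra e
        have := Equiv.Perm.one_lt_card_support_of_ne_one e
        rcases (by omega : σ.support.card = 2 ∨ σ.support.card = 3) with q | q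
        · simp [(Equiv.Perm.card_support_eq_two.1 q).sign_eq] at a1
        · have : orderOf σ ∣ 2 ^ k := orderOf_dvd_of_pow_eq_one (by
            rw [← map_pow, ← map_pow, hg, map_one, map_one])
          rw [(card_support_eq_three_iff.1 q).orderOf] at this
          simpa using Nat.prime_three.dvd_of_dvd_pow this
      have a4 (v) (hv : Q v ≠ 0) : (φ g).1 v = v := congrArg Subtype.val (Equiv.congr_fun a3 ⟨v, hv⟩)
      refine eq_of_smul_eq_smul (α := V) fun u => ?_
      obtain ⟨v, w, v1, w1 | rfl, rfl⟩ := f4 u <;> simp [act, a4, *]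
    · have e : (φ g).1 v ≠ v := fun q => Equiv.Perm.mem_support.1 hv (Subtype.ext q)
      have : R x v := by
        by_contra q
        by_cases q' : (c : V) = v
        · exact e (q' ▸ a')
        rcases f2 c d v c.2.1 d.2.1 v.2 (rc c d) ((f1 _ x _ c.2.1 x1 v.2).2 (iff_of_false x2 q))
          (fun q => h (Subtype.ext q)) q' with t | t <;> simp [t, a', b'] at e
      by_cases q : x = v
      · simp [q]
      · rcases f2 x y v x1 y1 v.2 y2 this y3 q with t | t <;> simp [t]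
  · obtain ⟨-, x, -, x1, -, -, x2⟩ := f3 c c.2.1
    have x3 (d : C) : polar Q d x = 0 := by
      by_contra q
      exact x2 ((f1 _ d _ c.2.1 d.2.1 x1).2 (iff_of_true (rc c d) ((hR _ _).2 (.inr q))))
    obtain ⟨t, ht⟩ := witt_vec hQ (u := c) (v := x) (fun e => c.2.1 (by simp [e]))
      (fun e => x1 (by simp [e])) (by rw [h01 _ c.2.1, h01 _ x1])
    obtain ⟨u, hu⟩ := sur _ (Subgroup.commutator_mem_commutator (Subgroup.mem_top (refl Q c))
      (Subgroup.mem_top t))
    have hu : φ u = refl Q c * refl Q x := by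
      rw [hu, commutatorElement_def, ← ht, ← refl_conj, refl_inv]; group
    have u1 (d : C) : ((u • d : C) : V) = d - polar Q (d : V) c • c := by
      rw [SubMulAction.val_smul, act, hu]
      simp [refl_of_perp (x3 d), refl_apply, h01 _ c.2.1]
    have u2 (d : C) (e : c ≠ d) : ((u • d : C) : V) = d - c := by
      rw [u1, h01 _ (((hR _ _).1 (rc d c)).resolve_left fun q => e (Subtype.ext q.symm)), one_smul]
    have u3 : u • c = c := Subtype.ext (by
      have : (2 : F) = 0 := by_contra fun q => by simpa [← one_add_one_eq_two] using h01 _ q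
      simp [u1, B_self, this])
    have u4 : u ^ 2 = 1 := eq_of_smul_eq_smul (α := V) fun v => by
      have := refl_conj (refl Q x) c
      rw [refl_of_perp (x3 c), mul_inv_eq_iff_eq_mul] at this
      rw [act, map_pow, hu, pow_two, mul_assoc, ← mul_assoc (refl Q x), this]
      simp [← mul_assoc]
    refine ⟨Subgroup.zpowers u, fun v => ⟨1, Subtype.ext ?_⟩, fun v hv => Subgroup.zpowers_le.2
      (show u ∈ MulAction.stabilizer H c from u3) hv, fun d d' a b => ?_, fun h a => ?_⟩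
    · obtain ⟨_, n, rfl⟩ := v
      change (u ^ n) ^ 2 = 1
      rw [← zpow_natCast, ← zpow_mul, mul_comm, zpow_mul, zpow_natCast, u4, one_zpow]
    · rcases f2 c d d' c.2.1 d.2.1 d'.2.1 (rc c d) (rc c d') (Subtype.val_injective.ne a)
        (Subtype.val_injective.ne b) with t | t
      · exact ⟨1, one_mem _, by rw [one_smul, Subtype.ext t]⟩
      · exact ⟨u, Subgroup.mem_zpowers u, Subtype.ext (by rw [u2 d a, t])⟩
    · by_contra e
      have := u2 _ (Ne.symm e)
      rw [a u (Subgroup.mem_zpowers u), eq_comm, sub_eq_self] at this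
      exact c.2.1 (by simp [this])

theorem hasSt_exc' {F : Type*} [Field F] [Finite F] {ι : Type} [Fintype ι] [DecidableEq ι]
    {Q : QuadraticForm F (ι → F)} (hQ : ND Q) (R : (ι → F) → (ι → F) → Prop)
    (hR : ∀ u v, R u v ↔ u = v ∨ polar Q u v ≠ 0) (h01 : ∀ x : F, x ≠ 0 → x = 1)
    (f1 : ∀ u v w, Q u ≠ 0 → Q v ≠ 0 → Q w ≠ 0 → (R u w ↔ (R u v ↔ R v w)))
    (f2 : ∀ u v w, Q u ≠ 0 → Q v ≠ 0 → Q w ≠ 0 → R u v → R u w → u ≠ v → u ≠ w → w = v ∨ w = v - u)
    (f3 : ∀ u, Q u ≠ 0 → ∃ v w, Q v ≠ 0 ∧ Q w ≠ 0 ∧ R u v ∧ u ≠ v ∧ ¬ R u w)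
    (f4 : ∀ u, ∃ v w, Q v ≠ 0 ∧ (Q w ≠ 0 ∨ w = 0) ∧ u = v + w) : HasSt 2 (POmega F ⇑Q) := by
  haveI : FaithfulSMul (Omega F ⇑Q) (ι → F) :=
    ⟨fun h => Subtype.ext (Subtype.ext (Units.ext (Matrix.ext_iff_mulVec.2 h)))⟩
  exact hasSt_exc hQ ((isoEquiv Q).toMonoidHom.comp (Omega F ⇑Q).subtype) (fun _ _ => rfl)
    (fun g => (mem_Omega_iff _).1 g.2) (fun s hs => ⟨⟨(isoEquiv Q).symm s, (mem_Omega_iff _).2
      (by simpa using hs)⟩, by simp⟩) R hR h01 f1 f2 f3 f4

end Cfsg.Agent.H9.St
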