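import Cfsg.Agent.H9.StAbs

/-! Chamber systems of flags of subspaces, for the Steinberg character. -/

set_option autoImplicit false

namespace Cfsg.Agent.H9.St

open Module Submodule
open scoped Pointwise

variable {H F V : Type*} [Group H] [Field F] [AddCommGroup V] [Module F V] [DistribMulAction H V]
  [SMulCommClass H F V]

theorem mem_smul {g : H} {U : Submodule F V} {x : V} : x ∈ g • U ↔ g⁻¹ • x ∈ U :=
  Set.mem_smul_set_iff_inv_smul_mem (A := (U : Set V))

theorem smul_mem {g : H} {U : Submodule F V} {x : V} : g • x ∈ g • U ↔ x ∈ U := by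
  rw [mem_smul, inv_smul_smul]

theorem finrank_smul (g : H) (U : Submodule F V) : finrank F ↥(g • U) = finrank F U :=
  (DistribMulAction.toLinearEquiv F V g).finrank_map_eq U

variable [FiniteDimensional F V]

theorem smul_eq_of {g : H} {U W : Submodule F V} (h : ∀ x ∈ U, g • x ∈ W)
    (e : finrank F U = finrank F W) : g • U = W :=
  eq_of_le_of_finrank_eq (fun x hx => by simpa using h _ (mem_smul.1 hx)) (by rw [finrank_smul, e])

theorem cover {A B : Submodule F V} (h : A ≤ B) (e : finrank F B ≤ finrank F A + 1) {x : V}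
    (hx : x ∈ B) (hx' : x ∉ A) : B = A ⊔ span F {x} := by
  have : A < A ⊔ span F {x} := left_lt_sup.2 fun a => hx' (a (mem_span_singleton_self x))
  have := finrank_lt_finrank_of_lt this
  exact (eq_of_le_of_finrank_le (sup_le h ((span_singleton_le_iff_mem _ _).2 hx)) (by omega)).symm

theorem finrank_sup_span {A : Submodule F V} {x : V} (hx : x ∉ A) :
    finrank F ↥(A ⊔ span F {x}) = finrank F A + 1 := by
  have := finrank_sup_add_finrank_inf_eq A (span F {x})
  rw [(disjoint_span_singleton_of_notMem hx).eq_bot, finrank_bot,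
    finrank_span_singleton (by rintro rfl; exact hx A.zero_mem)] at this
  exact this

theorem mem_sup_span {A : Submodule F V} {x y : V} : y ∈ A ⊔ span F {x} ↔ ∃ a : F, y - a • x ∈ A := by
  rw [mem_sup]
  constructor
  · rintro ⟨z, hz, w, hw, rfl⟩
    obtain ⟨a, rfl⟩ := mem_span_singleton.1 hw
    exact ⟨a, by simpa using hz⟩
  · rintro ⟨a, h⟩
    exact ⟨_, h, a • x, mem_span_singleton.2 ⟨a, rfl⟩, by simp⟩

variable (H F V) in
/-- a geometry: an invariant class of subspaces, and a rank -/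
structure Geo where
  T : Submodule F V → Prop
  inv : ∀ (g : H) U, T U → T (g • U)
  bot : T ⊥
  m : ℕ

/-- chambers -/
@[ext] structure Ch (Γ : Geo H F V) where
  c : ℕ → Submodule F V
  mono : Monotone c
  rk : ∀ j, finrank F (c j) = min j Γ.m
  ts : ∀ j, Γ.T (c j)

variable {Γ : Geo H F V}

instance instCoeFunCh : CoeFun (Ch Γ) fun _ => ℕ → Submodule F V := ⟨Ch.c⟩

theorem Ch.rk' (c : Ch Γ) {j : ℕ} (h : j ≤ Γ.m) : finrank F (c j) = j := by
  rw [c.rk, min_eq_left h]

theorem Ch.zero (c : Ch Γ) : c 0 = ⊥ := finrank_eq_zero.1 (c.rk' (Nat.zero_le _))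

theorem Ch.top (c : Ch Γ) {j : ℕ} (h : Γ.m ≤ j) : c j = c Γ.m :=
  (eq_of_le_of_finrank_eq (c.mono h) (by rw [c.rk, c.rk, min_self, min_eq_right h])).symm

theorem Ch.ext' {c d : Ch Γ} (h : ∀ j ≤ Γ.m, c j = d j) : c = d := by
  ext1; funext j
  rcases le_total j Γ.m with a | a
  · exact h j a
  · rw [c.top a, d.top a, h _ le_rfl]

theorem Ch.succ (c : Ch Γ) (j : ℕ) : c j ≤ c (j + 1) := c.mono j.le_succ

theorem Ch.cover (c : Ch Γ) {j : ℕ} {x : V} (hx : x ∈ c (j + 1)) (hx' : x ∉ c j) :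
    c (j + 1) = c j ⊔ span F {x} :=
  St.cover (c.succ j) (by rw [c.rk, c.rk]; omega) hx hx'

theorem Ch.exists_new (c : Ch Γ) {j : ℕ} (h : j < Γ.m) : ∃ x ∈ c (j + 1), x ∉ c j :=
  SetLike.not_le_iff_exists.1 fun a => by
    have := finrank_mono a
    rw [c.rk' h, c.rk' h.le] at this
    omega

instance instMulActionCh : MulAction H (Ch Γ) where
  smul g c := ⟨fun j => g • c j, fun _ _ h _ hx => mem_smul.2 (c.mono h (mem_smul.1 hx)),
    fun j => by rw [finrank_smul, c.rk], fun j => Γ.inv _ _ (c.ts j)⟩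
  one_smul c := Ch.ext (funext fun _ => one_smul _ _)
  mul_smul a b c := Ch.ext (funext fun _ => mul_smul _ _ _)

theorem Ch.smul_apply (g : H) (c : Ch Γ) (j : ℕ) : (g • c) j = g • c j := rfl

theorem Ch.smul_mem {g : H} {c : Ch Γ} (h : g • c = c) {j : ℕ} {x : V} (hx : x ∈ c j) :
    g • x ∈ c j := by
  rw [← h]; exact St.smul_mem.2 hx

theorem Ch.smul_eq {g : H} {c : Ch Γ} (h : ∀ j, ∀ x ∈ c j, g • x ∈ c j) : g • c = c :=
  Ch.ext (funext fun j => smul_eq_of (h j) rfl)

theorem exists_ch (P : ℕ → Submodule F V → Prop) (h0 : P 0 ⊥)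
    (h : ∀ k < Γ.m, ∀ D, Γ.T D → finrank F D = k → P k D →
      ∃ y ∉ D, Γ.T (D ⊔ span F {y}) ∧ P (k + 1) (D ⊔ span F {y})) :
    ∃ d : Ch Γ, ∀ j ≤ Γ.m, P j (d j) := by
  choose! y h1 h2 h3 using h
  obtain ⟨D, e0, e1⟩ : ∃ D : ℕ → Submodule F V, D 0 = ⊥ ∧
      ∀ k, D (k + 1) = D k ⊔ span F {y k (D k)} :=
    ⟨fun k => k.rec ⊥ fun k D => D ⊔ span F {y k D}, rfl, fun _ => rfl⟩
  have a (k : ℕ) (hk : k ≤ Γ.m) : Γ.T (D k) ∧ finrank F (D k) = k ∧ P k (D k) := by
    induction k with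
    | zero => exact e0 ▸ ⟨Γ.bot, finrank_bot F V, h0⟩
    | succ k ih =>
      obtain ⟨b1, b2, b3⟩ := ih (by omega)
      exact e1 k ▸ ⟨h2 k hk _ b1 b2 b3, (finrank_sup_span (h1 k hk _ b1 b2 b3)).trans (by rw [b2]),
        h3 k hk _ b1 b2 b3⟩
  refine ⟨⟨fun j => D (min j Γ.m), fun _ _ e => monotone_nat_of_le_succ (f := D)
    (fun k => e1 k ▸ le_sup_left) (min_le_min_right _ e), fun j => (a _ (min_le_right _ _)).2.1,
    fun j => (a _ (min_le_right _ _)).1⟩, fun j hj => ?_⟩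
  simpa [min_eq_left hj] using (a j hj).2.2

instance instFiniteCh [Finite V] : Finite (Ch Γ) :=
  haveI : Finite (Submodule F V) := .of_injective _ SetLike.coe_injective
  .of_injective (fun (c : Ch Γ) (j : Fin (Γ.m + 1)) => c j) fun _ _ e =>
    Ch.ext' fun j hj => congrFun e ⟨j, Nat.lt_succ_of_le hj⟩

noncomputable instance instFintypeCh [Finite V] : Fintype (Ch Γ) := .ofFinite _

/-- adjacency -/
def Adj (i : ℕ) (c d : Ch Γ) : Prop := ∀ j ≤ Γ.m, j ≠ i → d j = c j

open Classical in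
/-- panels -/
noncomputable def pan [Finite V] (i : ℕ) (c : Ch Γ) : Finset (Ch Γ) := Finset.univ.filter (Adj i c)

theorem mem_pan [Finite V] {i : ℕ} {c d : Ch Γ} : d ∈ pan i c ↔ Adj i c d := by simp [pan]

variable (Γ) in
/-- the Steinberg module -/
def stm [Finite V] (r : ℕ) : Submodule ℂ (Ch Γ → ℂ) where
  carrier := {f | ∀ i, 1 ≤ i → i ≤ r → ∀ c, ∑ d ∈ pan i c, f d = 0}
  add_mem' hf hg i a b c := by simp [Finset.sum_add_distrib, hf i a b c, hg i a b c]
  zero_mem' := by simp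
  smul_mem' t f hf i a b c := by simp [← Finset.mul_sum, hf i a b c]

section
variable [Finite V] {r : ℕ}

theorem stm_inv (g : H) (f) (hf : f ∈ stm Γ r) : (fun c => f (g • c)) ∈ stm Γ r := by
  intro i a b c
  rw [← hf i a b (g • c)]
  refine Finset.sum_equiv (MulAction.toPerm g) (fun d => ?_) fun _ _ => rfl
  rw [mem_pan, mem_pan]
  exact forall₃_congr fun j _ _ => (smul_left_cancel_iff g).symm

theorem vanish {f} (hf : f ∈ stm Γ r) {i : ℕ} (a : 1 ≤ i) (b : i ≤ r) {c : Ch Γ}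
    (h : ∀ d, Adj i c d → d i ≠ c i → f d = 0) : f c = 0 := by
  rw [← hf i a b c, Finset.sum_eq_single_of_mem c (mem_pan.2 fun _ _ _ => rfl) fun d e' e => ?_]
  rw [mem_pan] at e'
  exact h d e' fun e'' => e (Ch.ext' fun j hj => if q : j = i then q ▸ e'' else e' j hj q)

theorem apt {W : Type*} [Fintype W] (γ : W → Ch Γ) (ε : W → ℂ) {Opp : Ch Γ → Prop}
    (ht : ∀ i, 1 ≤ i → i ≤ r → ∃ t : W ≃ W, ∀ w, ε (t w) = -ε w ∧ Adj i (γ w) (γ (t w)))
    {w₀ : W} (h0 : ε w₀ ≠ 0) (h1 : ∀ w, Opp (γ w) → w = w₀) (h2 : Opp (γ w₀)) :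
    ∃ f ∈ stm Γ r, f (γ w₀) ≠ 0 ∧ ∀ d, Opp d → d ≠ γ w₀ → f d = 0 := by
  classical
  refine ⟨fun d => ∑ w with γ w = d, ε w, fun i a b c => ?_, ?_, fun d a b => ?_⟩
  · obtain ⟨t, ht⟩ := ht i a b
    refine (Finset.sum_fiberwise_eq_sum_filter _ _ γ ε).trans ?_
    rw [ ← CharZero.eq_neg_self_iff, ← Finset.sum_neg_distrib]
    refine (Finset.sum_equiv t (fun w => ?_) fun w _ => (ht w).1.symm).symm
    simp only [Finset.mem_filter, Finset.mem_univ, true_and, mem_pan]
    exact forall₃_congr fun j e e' => by rw [(ht w).2 j e e']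
  · simp only
    rwa [Finset.sum_eq_single_of_mem w₀ (by simp) fun w e' e => (e (h1 w ?_)).elim]
    rwa [(Finset.mem_filter.1 e').2]
  · exact Finset.sum_eq_zero fun w e => by
      obtain rfl := (Finset.mem_filter.1 e).2
      exact (b (by rw [h1 w a])).elim

theorem hyper {f} (hf : f ∈ stm Γ r) (d₀ : Ch Γ) (k : ℕ) (X : Submodule F V)
    (h : ∀ d : Ch Γ, (∀ j ≤ k, d j = d₀ j) → ¬ d (k + 1) ≤ X → f d = 0) {i : ℕ} (a : k + 1 ≤ i)
    (b : i ≤ Γ.m) (b' : i ≤ r + 1) :
    ∀ d : Ch Γ, (∀ j ≤ k, d j = d₀ j) → ¬ d i ≤ X → f d = 0 := by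
  induction i, a using Nat.le_induction with
  | base => exact h
  | succ i a ih =>
    intro d h1 h2
    have ih := ih (by omega) (by omega)
    by_cases e : d i ≤ X
    · have : ∀ d' : Ch Γ, d' (i + 1) = d (i + 1) → d' i ≤ X → d' i = d (i + 1) ⊓ X := fun d' u v => by
        refine eq_of_le_of_finrank_le (le_inf (u ▸ d'.succ i) v) ?_
        have := finrank_lt_finrank_of_lt (inf_lt_left.2 h2)
        rw [d.rk' b] at this
        rw [d'.rk' (by omega)]
        omega
      refine vanish hf (i := i) (by omega) (by omega) fun d' u v => ih d'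
        (fun j hj => (u j (by omega) (by omega)).trans (h1 j hj)) fun w => v ?_
      rw [this d' (u _ b (by omega)) w, this d rfl e]
    · exact ih d h1 e

end

/-- the initial spans of a family -/
def sp (F : Type*) [Field F] [Module F V] {m : ℕ} (a : Fin m → V) (j : ℕ) : Submodule F V :=
  span F (a '' {i | i.1 < j})

omit [FiniteDimensional F V] in
theorem mem_sp {m : ℕ} (a : Fin m → V) {j : ℕ} {i : Fin m} (h : i.1 < j) : a i ∈ sp F a j :=
  subset_span ⟨i, h, rfl⟩

/-- the chamber of a frame -/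
def ofVec (a : Fin Γ.m → V) (h : LinearIndependent F a) (hT : ∀ j, Γ.T (sp F a j)) : Ch Γ where
  c := sp F a
  mono _ _ e := span_mono (Set.image_mono fun _ b => lt_of_lt_of_le b e)
  rk j := by
    rw [sp, Set.image_eq_range]
    refine (finrank_span_eq_card (h.comp _ Subtype.val_injective)).trans ?_
    rw [Fintype.card_subtype]
    simp [Fin.card_filter_val_lt, min_comm]
  ts := hT

theorem Ch.sp_eq (c : Ch Γ) {a : Fin Γ.m → V} (h : ∀ i : Fin Γ.m, a i ∈ c (i + 1) ∧ a i ∉ c i) {j : ℕ}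
    (hj : j ≤ Γ.m) : sp F a j = c j := by
  induction j with
  | zero => simp [sp, c.zero]
  | succ j ih =>
    rw [c.cover (h ⟨j, hj⟩).1 (h ⟨j, hj⟩).2, ← ih (by omega), sp, sp, ← span_union,
      ← Set.image_singleton, ← Set.image_union]
    congr 2
    ext i
    simp [Fin.ext_iff]
    omega

theorem Ch.li (c : Ch Γ) {a : Fin Γ.m → V} (h : ∀ i : Fin Γ.m, a i ∈ c (i + 1) ∧ a i ∉ c i) :
    LinearIndependent F a := by
  have := c.sp_eq h le_rfl
  rw [sp, show {i : Fin Γ.m | i.1 < Γ.m} = Set.univ by simp, Set.image_univ] at this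
  rw [linearIndependent_iff_card_eq_finrank_span, Set.finrank, this, c.rk' le_rfl, Fintype.card_fin]

omit [FiniteDimensional F V] in
theorem sp_swap {m : ℕ} (a : Fin m → V) {i j : ℕ} (hi : i + 1 < m) (hj : j ≠ i + 1) :
    sp F (a ∘ Equiv.swap ⟨i, by omega⟩ ⟨i + 1, hi⟩) j = sp F a j := by
  rw [sp, Set.image_comp, Equiv.image_eq_preimage_symm]
  congr 2
  ext l
  simp only [Equiv.symm_swap, Set.mem_preimage, Set.mem_setOf_eq, Equiv.swap_apply_def, Fin.ext_iff]
  split_ifs <;> first | rfl | (simp only; omega)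

theorem perm_eq_one {m : ℕ} {π : Equiv.Perm (Fin m)} (h : ∀ i, π i ≤ i) : π = 1 := by
  ext1 i
  induction i using WellFoundedLT.induction with
  | ind i ih =>
    by_contra e
    exact e (π.injective (ih _ (lt_of_le_of_ne (h i) e)))

variable {p : ℕ} [hp : Fact p.Prime] [CharP F p]

theorem pow_eq_one_of_nil [FaithfulSMul H V] {u : H}
    (h : IsNilpotent (DistribMulAction.toModuleEnd F V u - 1)) : ∃ k, u ^ p ^ k = 1 := by
  obtain ⟨k, h⟩ := h
  refine ⟨k, eq_of_smul_eq_smul (α := V) fun x => ?_⟩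
  rcases subsingleton_or_nontrivial V with e | e
  · exact Subsingleton.elim _ _
  haveI : CharP (End F V) p := charP_of_injective_algebraMap (algebraMap F _).injective p
  have := pow_eq_zero_of_le (k.lt_pow_self hp.out.one_lt).le h
  rw [sub_pow_char_pow_of_commute _ _ (Commute.one_right _), one_pow, ← map_pow, sub_eq_zero] at this
  simpa using LinearMap.congr_fun this x

theorem Ch.sub_mem {g : H} {k : ℕ} (hg : g ^ p ^ k = 1) {c : Ch Γ} (h : g • c = c) {j : ℕ} {x : V}
    (hx : x ∈ c (j + 1)) : g • x - x ∈ c j := by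
  by_cases e : x ∈ c j
  · exact (c j).sub_mem (Ch.smul_mem h e) e
  obtain ⟨a, ha⟩ := mem_sup_span.1 (c.cover hx e ▸ Ch.smul_mem h hx)
  have : ∀ n : ℕ, g ^ n • x - a ^ n • x ∈ c j := fun n => by
    induction n with
    | zero => simp
    | succ n ih =>
      convert add_mem (Ch.smul_mem h ih) ((c j).smul_mem (a ^ n) ha) using 1
      simp [pow_succ' g, pow_succ a, mul_smul, smul_sub, smul_comm g (a ^ n)]
  have : (1 - a) ^ p ^ k • x ∈ c j := by simpa [sub_pow_char_pow, sub_smul, hg] using this (p ^ k)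
  by_contra e'
  refine e ((Submodule.smul_mem_iff _ (pow_ne_zero _ fun q => e' ?_)).1 this)
  rwa [← sub_eq_zero.1 q, one_smul] at ha

/-- the unipotent radical of the stabilizer -/
def Ch.uni [Finite H] (c : Ch Γ) (X : Submodule F V) (hX : c Γ.m ≤ X) : Subgroup H :=
  let S : Submonoid H :=
    { carrier := {u | (∀ j, ∀ x ∈ c (j + 1), u • x - x ∈ c j) ∧ ∀ x ∈ X, u • x - x ∈ c Γ.m}
      one_mem' := by simp
      mul_mem' {u v} hu hv := ⟨fun j x hx => by
        rw [mul_smul, ← sub_add_sub_cancel _ (v • x)]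
        exact add_mem (hu.1 j _ (by
          simpa using add_mem (c.succ j (hv.1 j x hx)) hx)) (hv.1 j x hx), fun x hx => by
        rw [mul_smul, ← sub_add_sub_cancel _ (v • x)]
        exact add_mem (hu.2 _ (by
          simpa using add_mem (hX (hv.2 x hx)) hx)) (hv.2 x hx)⟩ }
  { S with
    inv_mem' {u} hu := Submonoid.powers_le.2 (show u ∈ S from hu)
      (mem_powers_iff_mem_zpowers.2 (by simp)) }

theorem Ch.uni_fix [Finite H] {c : Ch Γ} {X : Submodule F V} {hX : c Γ.m ≤ X} (u : H)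
    (hu : u ∈ c.uni X hX) : u • c = c :=
  Ch.smul_eq fun j x hx => by simpa using add_mem (hu.1 j x (c.succ j hx)) hx

theorem Ch.pow_apply {c : Ch Γ} {N : End F V} (h : ∀ j, ∀ x ∈ c (j + 1), N x ∈ c j) (j : ℕ) :
    ∀ x ∈ c j, (N ^ j) x = 0 := by
  induction j with
  | zero => simp [c.zero]
  | succ j ih => exact fun x hx => by rw [pow_succ]; exact ih _ (h j x hx)

end Cfsg.Agent.H9.St
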