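import Cfsg.Agent.H9.StPol

/-! The Steinberg character of symplectic and unitary groups. -/

set_option autoImplicit false

namespace Cfsg.Agent.H9.St

open Module Submodule
open scoped Pointwise

variable {H F V : Type*} [Group H] [Field F] [AddCommGroup V] [Module F V] [DistribMulAction H V]
  [SMulCommClass H F V] {p : ℕ} [hp : Fact p.Prime] [CharP F p]

theorem nil_of_pow {g : H} {k : ℕ} (hg : g ^ p ^ k = 1) :
    (DistribMulAction.toModuleEnd F V g - 1) ^ p ^ k = 0 := by
  rcases subsingleton_or_nontrivial V with e | e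
  · exact Subsingleton.elim _ _
  haveI : CharP (End F V) p := charP_of_injective_algebraMap (algebraMap F _).injective p
  rw [sub_pow_char_pow_of_commute _ _ (Commute.one_right _), one_pow, ← map_pow, hg, map_one, sub_self]

variable (F) in
include F in
theorem eq_one_of_pow [FaithfulSMul H V] {g : H} {k : ℕ} (hg : g ^ p ^ k = 1)
    (h : ∀ z : V, g • (g • z - z) = g • z - z → g • z = z) : g = 1 := by
  have (j : ℕ) : ∀ z : V, ((DistribMulAction.toModuleEnd F V g - 1) ^ j) (g • z - z) = 0 →
      g • z = z := by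
    induction j with
    | zero => simp [sub_eq_zero]
    | succ j ih => exact fun z e => h z (ih _ (by simpa [pow_succ] using e))
  exact eq_of_smul_eq_smul (α := V) fun z => by rw [one_smul, this _ z (by rw [nil_of_pow hg]; rfl)]

theorem surj_of_nd [Finite V] [FiniteDimensional F V] {σ : F →+* F} {B : V →ₛₗ[σ] V →ₗ[F] F}
    (h : ∀ x, (∀ y, B x y = 0) → x = 0) : Function.Surjective B := by
  classical
  exact (Finite.injective_iff_surjective_of_equiv (finBasis F V).toDualEquiv.toEquiv).1
    ((injective_iff_map_eq_zero B).2 fun x e => h x fun y => by simp [e])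

theorem Pol.two_of [FiniteDimensional F V] (P : Pol H F V) {A : Submodule F V} {x y : V} (a : P.sing x) (b : x ∈ P.perp A)
    (b' : y ∈ P.perp A) (e : x ∉ A) (q : P.B x y ≠ 0) {t : F} (h0 : t ≠ 0)
    (ht : P.sing (y + t • x)) : ∃ w, P.sing w ∧ w ∈ P.perp A ∧ P.B x w ≠ 0 ∧ w ∉ A ⊔ span F {y} := by
  refine ⟨_, ht, add_mem b' ((P.perp A).smul_mem t b), by simpa [P.iso a] using q, fun s => ?_⟩
  obtain ⟨r, hr⟩ := mem_sup_span.1 s
  obtain rfl : r = 1 := by
    simpa [P.iso a, sub_eq_zero, q, -mul_eq_right₀, eq_comm (b := r * _), mul_eq_right₀ q] using Pol.mem_perp'.1 b _ hr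
  exact e ((A.smul_mem_iff h0).1 (by simpa using hr))

theorem hasSt_herm [Finite V] [Finite H] [FaithfulSMul H V] [FiniteDimensional F V] {σ : F →+* F}
    (B : V →ₛₗ[σ] V →ₗ[F] F) (ε : F) (hB : ∀ x y, B y x = ε * σ (B x y)) (hε : ε * σ ε = 1)
    (rep : Function.Surjective B) (tr : ∀ w, ∃ c, c + ε * σ c = B w w)
    (tr0 : ∃ c, c ≠ 0 ∧ c + ε * σ c = 0) (isom : ∀ (g : H) x y, B (g • x) (g • y) = B x y)
    (full : ∀ g : End F V, (∀ x y, B (g x) (g y) = B x y) → IsNilpotent (g - 1) →
      ∃ h : H, ∀ z, h • z = g z) : HasSt p (H ⧸ Subgroup.center H) := by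
  have refl {x y} (h : B x y = 0) : B y x = 0 := by simp [hB x y, h]
  have key {x w} (a : B x x = 0) (b : B x w ≠ 0) (c : F) :
      B (w + (c / B w x) • x) (w + (c / B w x) • x) = B w w + (c + ε * σ c) := by
    have b' := mt refl b
    have : σ (B w x) ≠ 0 := by simpa using b'
    simp only [map_add, LinearMap.map_smulₛₗ, LinearMap.add_apply, LinearMap.smul_apply, a,
      RingHom.id_apply, smul_eq_mul, map_div₀, hB w x]
    field_simp
    ring
  let P : Pol H F V :=
    { σ := σ, B := B, sing x := B x x = 0, refl := refl, rep := rep, zero := by simp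
      smul a x h := by simp [h]
      add a b c := by simp [a, b, c, refl c]
      iso h := h
      hyp {x w} a b := let ⟨c, e⟩ := tr w; ⟨_, by rw [key a b (-c), ← e, map_neg]; ring⟩
      isom := isom
      sinv g x h := (isom g x x).trans h }
  refine (P.ax (fun x y y' (a : B x x = 0) (b : B y y = 0) (b' : B y' y' = 0) (e : B x y = 1)
    (e' : B x y' = 1) => ?_) (fun h A x a b c d e q => ?_) fun g k hg h => ?_).hasSt_center
  · let ψ : Dual F V := σ ε • B (y - y') ∘ₗ (1 - (B x).smulRight y)
    let N : End F V := (B x).smulRight (y' - y) + ψ.smulRight x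
    have n1 (z) : N z = B x z • (y' - y) + ψ z • x := rfl
    have n2 (z) : B x (N z) = 0 := by simp [n1, e, e', a]
    have yx : B y x = ε := by simp [hB x y, e]
    have yx' : B y' x = ε := by simp [hB x y', e']
    have n3 (z) : B y' (z + N z) = B y z := by
      simp [n1, ψ, b, b', yx']
      linear_combination (B y z - B y' z + B x z * B y' y) * hε
    refine (full (1 + N) (fun z w => ?_) ⟨3, LinearMap.ext fun z => ?_⟩).elim fun g hg => ?_
    rotate_right
    · exact ⟨g, by simp [hg, n1, ψ, e], fun z q => ⟨ψ z, by simp [hg, n1, show B x z = 0 from q]⟩⟩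
    · have h1 : σ (σ ε) = ε := by
        have := congrArg σ hε
        rw [map_mul, map_one] at this
        linear_combination ε * this - σ (σ ε) * hε
      simp only [LinearMap.add_apply, End.one_apply]
      rw [map_add B, LinearMap.add_apply, n1 z, map_add B, LinearMap.map_smulₛₗ, LinearMap.map_smulₛₗ,
        map_sub B]
      simp only [LinearMap.add_apply, LinearMap.sub_apply, LinearMap.smul_apply, smul_eq_mul, n3]
      simp [n1 w, ψ, e, e', a, b, b', yx, h1, hB x z, hB y z, hB y' z, hB y' y]
      ring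
    · have : N x = 0 := by simp [n1, ψ, a, yx, yx']
      simp [pow_succ, n1 (N _), n2, this]
  · obtain ⟨t, t0, t1⟩ := tr0
    exact P.two_of c d (b ▸ Pol.smul_mem_perp.2 d) e q (div_ne_zero t0 (mt refl q))
      ((key c q t).trans (by rw [isom, t1, add_zero]; exact c))
  · exact eq_one_of_pow F hg fun z e => h z (show B _ _ = 0 by
      rw [map_sub (B _), ← isom g _ z, e, sub_self])

end Cfsg.Agent.H9.St
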