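import Cfsg.Agent.H9.StFlag

/-! The Steinberg character of linear groups. -/

set_option autoImplicit false

namespace Cfsg.Agent.H9.St

open Module Submodule
open scoped Pointwise

variable {H F V : Type*} [Group H] [Field F] [AddCommGroup V] [Module F V] [DistribMulAction H V]
  [SMulCommClass H F V] [FiniteDimensional F V]

variable (H F V) in
/-- the projective geometry -/
noncomputable abbrev geoA : Geo H F V := ⟨fun _ => True, fun _ _ _ => trivial, trivial, finrank F V⟩

/-- opposition of complete flags -/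
def OppA (c d : Ch (geoA H F V)) : Prop :=
  ∀ j ≤ finrank F V, Disjoint (c (finrank F V - j)) (d j)

section
variable {c d : Ch (geoA H F V)}

theorem topA (c : Ch (geoA H F V)) : c (finrank F V) = ⊤ := eq_top_of_finrank_eq (c.rk' le_rfl)

theorem newA (c : Ch (geoA H F V)) {k : ℕ} (hk : k < finrank F V) {D : Submodule F V}
    (hD : finrank F D = k) : ¬ ⊤ ≤ c (finrank F V - (k + 1)) ⊔ D := fun e => by
  have := (finrank_mono e).trans (finrank_add_le_finrank_add_finrank _ _)
  rw [finrank_top, c.rk' (Nat.sub_le (finrank F V) _)] at this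
  omega

theorem stepA {k : ℕ} {D : Submodule F V} (h : Disjoint (c (finrank F V - k)) D) {y : V}
    (hy : y ∉ c (finrank F V - (k + 1)) ⊔ D) :
    Disjoint (c (finrank F V - (k + 1))) (D ⊔ span F {y}) :=
  (h.mono_left (c.mono (by omega))).disjoint_sup_right_of_disjoint_sup_left
    (disjoint_span_singleton_of_notMem hy)

theorem OppA.frame (h : OppA c d) {i : ℕ} (hi : i < finrank F V) :
    ∃ x ∈ c (finrank F V - i), x ∈ d (i + 1) ∧ x ∉ d i := by
  by_contra! e
  have := finrank_add_finrank_le_of_disjoint (disjoint_def.2 fun x a b =>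
    disjoint_def.1 (h i hi.le) x a (e x a b))
  rw [c.rk' (Nat.sub_le (finrank F V) _), d.rk' hi] at this
  omega

theorem OppA.smul (h : OppA c d) (g : H) : OppA (g • c) (g • d) := fun j hj =>
  disjoint_def.2 fun x a b => by
    simpa [inv_smul_eq_iff] using disjoint_def.1 (h j hj) _ (mem_smul.1 a) (mem_smul.1 b)

theorem OppA.norm (h : OppA c d) {k : ℕ} (hk : k < finrank F V) {ψ : Dual F V}
    (h1 : d k ≤ LinearMap.ker ψ) (h2 : ψ ≠ 0) (h3 : c (finrank F V - (k + 1)) ≤ LinearMap.ker ψ) :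
    ∃ y ∈ c (finrank F V - k), y ∈ d (k + 1) ∧ ψ y = 1 := by
  obtain ⟨x, a, b, e⟩ := h.frame hk
  have : ψ x ≠ 0 := fun q => h2 (LinearMap.ker_eq_top.1 (eq_top_of_finrank_eq ?_))
  · exact ⟨(ψ x)⁻¹ • x, (c _).smul_mem _ a, (d _).smul_mem _ b, by simp [this]⟩
  have q1 : c (finrank F V - (k + 1)) ⊔ d (k + 1) ≤ LinearMap.ker ψ :=
    sup_le h3 (d.cover b e ▸ sup_le h1 ((span_singleton_le_iff_mem _ _).2 q))
  have q2 := finrank_sup_add_finrank_inf_eq (c (finrank F V - (k + 1))) (d (k + 1))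
  rw [(h _ hk).eq_bot, finrank_bot, c.rk' (Nat.sub_le (finrank F V) _), d.rk' hk] at q2
  have := finrank_mono q1
  have := finrank_le (LinearMap.ker ψ)
  omega

end

theorem exists_dual {X : Submodule F V} {y : V} (h : y ∉ X) :
    ∃ ψ : Dual F V, X ≤ LinearMap.ker ψ ∧ ψ y = 1 := by
  obtain ⟨ψ, a, b⟩ := X.exists_le_ker_of_notMem h
  exact ⟨(ψ y)⁻¹ • ψ, fun x hx => by simp [show ψ x = 0 from b hx], by simp [a]⟩

variable {p : ℕ} [hp : Fact p.Prime] [CharP F p]

theorem axA [Finite V] [Finite H] [FaithfulSMul H V]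
    (tv : ∀ (ψ : Dual F V) v, ψ v = 0 → ∃ g : H, ∀ z, g • z = z + ψ z • v) :
    Ax p H (stm (geoA H F V) (finrank F V - 1)) OppA := by
  have ex (c : Ch (geoA H F V)) : ∃ d, OppA c d :=
    exists_ch (fun j D => Disjoint (c (finrank F V - j)) D) disjoint_bot_right fun k hk D _ a b =>
      let ⟨y, _, e⟩ := SetLike.not_le_iff_exists.1 (newA c hk a)
      ⟨y, fun q => e (mem_sup_right q), trivial, stepA b e⟩
  have un (c : Ch (geoA H F V)) (k : ℕ) (ψ : Dual F V) (v) (a : c k ≤ LinearMap.ker ψ)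
      (b : v ∈ c k) : ∃ g ∈ c.uni _ le_rfl, ∀ z, g • z = z + ψ z • v := by
    obtain ⟨g, hg⟩ := tv ψ v (a b)
    have : ∀ j, ∀ x ∈ c (j + 1), g • x - x ∈ c j := fun j x hx => by
      rw [hg, add_sub_cancel_left]
      rcases le_or_gt k j with e | e
      · exact (c j).smul_mem _ (c.mono e b)
      · simp [show ψ x = 0 from a (c.mono e hx)]
    exact ⟨g, ⟨this, fun x hx => this _ x (c.succ _ hx)⟩, hg⟩
  refine ⟨?_, stm_inv, fun g c d h => h.smul g, fun c f hf h => ?_, fun c d h => ?_, ex,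
    fun g k c d hg h a b => ?_, fun c => ⟨c.uni _ le_rfl, fun u => ?_, Ch.uni_fix, fun d d' a b => ?_,
      fun h a => ?_⟩⟩
  · obtain ⟨d, -⟩ := exists_ch (Γ := geoA H F V) (fun _ _ => True) trivial fun k hk D _ a _ =>
      let ⟨y, _, e⟩ := SetLike.exists_of_lt (lt_top_of_finrank_lt_finrank (a ▸ hk))
      ⟨y, e, trivial, trivial⟩
    exact ⟨d⟩
  · have (k : ℕ) (hk : k ≤ finrank F V) : ∀ d : Ch (geoA H F V),
        (∀ j ≤ k, Disjoint (c (finrank F V - j)) (d j)) → f d = 0 := by
      induction hk using Nat.decreasingInduction with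
      | self => exact h
      | of_succ k hk ih =>
        intro d hd
        refine hyper hf d k (c (finrank F V - (k + 1)) ⊔ d k) (fun d' a b => ih d' fun j hj => ?_) hk
          le_rfl (by omega) d (fun _ _ => rfl) (topA d ▸ newA c hk (d.rk' hk.le))
        rcases hj.lt_or_eq with e | rfl
        · exact a j (by omega) ▸ hd j (by omega)
        · obtain ⟨y, u, v⟩ := SetLike.not_le_iff_exists.1 b
          rw [d'.cover u (fun q => v (mem_sup_right (a k le_rfl ▸ q))), a k le_rfl]
          exact stepA (hd k le_rfl) v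
    exact funext fun d => this 0 (by omega) d fun j hj => by simp [Nat.le_zero.1 hj, d.zero]
  · choose e h1 h2 using fun i : Fin (finrank F V) => h.frame i.2
    let γ : Equiv.Perm (Fin (finrank F V)) → Ch (geoA H F V) := fun π =>
      ofVec (e ∘ π) ((d.li h2).comp _ π.injective) fun _ => trivial
    have : γ 1 = d := Ch.ext' fun j hj => d.sp_eq h2 hj
    rw [← this] at h ⊢
    refine apt γ (fun π => ((Equiv.Perm.sign π : ℤ) : ℂ)) (fun i a b => ?_) (by simp)
      (fun π a => perm_eq_one fun i => ?_) h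
    · obtain ⟨i, rfl⟩ := Nat.exists_eq_add_of_le' a
      refine ⟨.mulRight (.swap ⟨i, by omega⟩ ⟨i + 1, by omega⟩), fun π => ⟨?_, fun j _ q =>
        sp_swap (e ∘ π) (by omega) q⟩⟩
      simp [Equiv.Perm.sign_swap, Fin.ext_iff]
    · by_contra! q
      refine (h2 (π i)).2 (disjoint_def.1 (a (i + 1) i.2) _ (c.mono ?_ (h1 _))
        (mem_sp (e ∘ π) i.1.lt_succ_self) ▸ zero_mem _)
      have : i.1 < π i := q
      omega
  · have (j : ℕ) (hj : j ≤ finrank F V) : ∀ x ∈ d j, g • x = x := by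
      induction j with
      | zero => simp [d.zero]
      | succ j ih =>
        obtain ⟨y, u, v, w⟩ := h.frame hj
        intro x hx
        obtain ⟨t, ht⟩ := mem_sup_span.1 (d.cover v w ▸ hx)
        have := disjoint_def.1 (h j (by omega)) _ ((c _).sub_mem (Ch.smul_mem a u) u)
          (Ch.sub_mem hg b v)
        have := ih (by omega) _ ht
        simp_all [sub_eq_zero, smul_sub, smul_comm g t]
    exact eq_of_smul_eq_smul (α := V) fun x => by simpa using this _ le_rfl x (by simp [topA])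
  · obtain ⟨k, hk⟩ := pow_eq_one_of_nil (F := F) (V := V) (p := p) (u := (u : H)) ⟨finrank F V,
      LinearMap.ext fun x => Ch.pow_apply u.2.1 _ x (by simp [topA])⟩
    exact ⟨k, Subtype.ext (by simpa using hk)⟩
  · have (k : ℕ) (hk : k ≤ finrank F V) : ∃ u ∈ c.uni _ le_rfl, ∀ j ≤ k, (u • d) j = d' j := by
      induction k with
      | zero => exact ⟨1, one_mem _, by simp [Ch.zero]⟩
      | succ k ih =>
        obtain ⟨u, hu, e⟩ := ih (by omega)
        have a' := a.smul u
        rw [Ch.uni_fix u hu] at a'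
        obtain ⟨ψ, h1, h2⟩ := (c (finrank F V - (k + 1)) ⊔ d' k).exists_le_ker_of_lt_top
          (lt_top_iff_ne_top.2 (mt eq_top_iff.1 (newA c hk (d'.rk' (Nat.le_of_succ_le hk)))))
        rw [sup_le_iff] at h2
        obtain ⟨y, y1, y2, y3⟩ := a'.norm hk (e k le_rfl ▸ h2.2) h1 h2.1
        obtain ⟨z, z1, z2, z3⟩ := b.norm hk h2.2 h1 h2.1
        rw [show finrank F V - k = finrank F V - (k + 1) + 1 by omega] at y1 z1
        obtain ⟨t, ht⟩ := mem_sup_span.1 (c.cover y1 (fun q => by simpa [y3] using h2.1 q) ▸ z1)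
        obtain rfl : 1 = t := by simpa [y3, z3, sub_eq_zero] using h2.1 ht
        obtain ⟨g, hg, hg'⟩ := un c _ ψ _ h2.1 ht
        refine ⟨g * u, mul_mem hg hu, fun j hj => ?_⟩
        have q : ∀ j ≤ k, ∀ x ∈ (u • d) j, g • x ∈ d' j := fun j hj x hx => by
          rw [e j hj] at hx
          simpa [hg', show ψ x = 0 from h2.2 (d'.mono hj hx)] using hx
        rw [mul_smul]
        refine smul_eq_of (fun x hx => ?_) (by rw [Ch.rk, Ch.rk])
        rcases hj.lt_or_eq with q' | rfl
        · exact q j (by omega) x hx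
        · obtain ⟨s, hs⟩ := mem_sup_span.1 ((u • d).cover y2 (fun q => by
            simpa [y3] using h2.2 (e k le_rfl ▸ q)) ▸ hx)
          simpa [smul_sub, smul_comm g s, hg' y, y3] using
            add_mem (d'.succ k (q k le_rfl _ hs)) ((d' _).smul_mem s z2)
    obtain ⟨u, hu, e⟩ := this _ le_rfl
    exact ⟨u, hu, Ch.ext' e⟩
  · generalize h • c = e at a ⊢
    refine Ch.ext' fun k hk => ?_
    induction k with
    | zero => simp [Ch.zero]
    | succ k ih =>
      refine eq_of_le_of_finrank_eq (fun y hy => by_contra fun q => ?_) (by rw [Ch.rk, Ch.rk])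
      obtain ⟨x, x1, x2⟩ := c.exists_new hk
      obtain ⟨ψ, h1, h2⟩ := exists_dual q
      obtain ⟨g, hg, hg'⟩ := un c _ ψ x h1 x1
      have : x ∈ e (k + 1) := by simpa [hg', h2] using (e _).sub_mem (Ch.smul_mem (a g hg) hy) hy
      rw [e.cover this (ih (by omega) ▸ x2), ih (by omega), ← c.cover x1 x2] at hy
      exact q hy

end Cfsg.Agent.H9.St
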