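import Cfsg.Agent.H9.StHerm
import Cfsg.Agent.H7.Parity
import Cfsg.Agent.H7.Bridge

/-! The Steinberg character of orthogonal groups. -/

set_option autoImplicit false

namespace Cfsg.Agent.H9.St

open Module Submodule QuadraticMap H7
open scoped Pointwise

theorem hasSt_orth {H F V : Type*} [Group H] [Field F] [AddCommGroup V] [Module F V]
    [DistribMulAction H V] [SMulCommClass H F V] {p : ℕ} [hp : Fact p.Prime] [CharP F p] [Finite V]
    [Finite F] [Finite H] [FaithfulSMul H V] [FiniteDimensional F V] {Q : QuadraticForm F V}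
    (hQ : ND Q) (hE : NonExc Q) (φ : H → OG Q) (act : ∀ g x, g • x = (φ g).1 x)
    (mem : ∀ g, φ g ∈ commutator (OG Q)) (sur : ∀ s ∈ commutator (OG Q), ∃ g, φ g = s) :
    HasSt p (H ⧸ Subgroup.center H) := by
  have ev (g : H) := even_rk_of_mem_commutator hQ hE (mem g)
  let P : Pol H F V :=
    { σ := .id F, B := polarBilin Q, sing x := Q x = 0, refl h := (B_comm Q _ _).trans h
      rep ψ := let ⟨w, h⟩ := hQ.exists_repr ψ; ⟨w, LinearMap.ext fun x => (B_comm Q _ _).trans (h x)⟩
      zero := by simp
      smul a x h := by simp [Q_smul, h]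
      add a b c := by simpa [Q_add, a, b] using c
      iso h := by simp [B_self, h]
      hyp {x w} a b := ⟨-Q w / polar Q x w, by
        have : polar Q x w ≠ 0 := b
        qsimp; rw [a, B_comm Q w x]; field_simp; ring⟩
      isom g x y := by simp [act]
      sinv g x h := by simpa [act] using h }
  refine (P.ax (fun x y y' (a : Q x = 0) (b : Q y = 0) (b' : Q y' = 0) (e : polar Q x y = 1)
    (e' : polar Q x y' = 1) => ?_) (fun h A x a b c d e q => ?_) fun g k hg h => ?_).hasSt_center
  · have w : polar Q x (y - y') = 0 := by simp [e, e']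
    obtain ⟨g, hg⟩ := sur _ (siegel_mem_commutator hQ hE a w)
    have : ∀ z, g • z = (siegel x _ a w).1 z := fun z => by rw [act, hg]
    refine ⟨g, (this y).trans ?_, fun z (q : polar Q x z = 0) => ⟨polar Q z (y - y'), ?_⟩⟩
    · rw [siegel_apply, B_comm Q y x, e]
      qsimp
      simp [b, b']
    · simp [this, siegel_apply, B_comm Q z x, q]
  · by_contra! s
    have q' : polar Q x (h • x) ≠ 0 := q
    have hx : h • x ∈ P.perp A := b ▸ Pol.smul_mem_perp.2 d
    have a1 := Pol.ts_sup a c d
    have a2 : TS Q (A ⊔ span F {x}) := fun u hu => (a1 u hu).1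
    have a3 : P.perp A ≤ A ⊔ span F {h • x} ⊔ span F {x} := fun v hv => by
      let t := 1 - polar Q x v / polar Q x (h • x)
      have b1 : P.B x (v + t • h • x) ≠ 0 := by
        change polar Q x _ ≠ 0
        qsimp
        simpa [t, sub_mul, div_mul_cancel₀ _ q'] using q'
      obtain ⟨r, hr⟩ := P.hyp c b1
      have := s _ hr (add_mem (add_mem hv ((P.perp A).smul_mem t hx)) ((P.perp A).smul_mem r d))
        (by simpa [P.iso c] using b1)
      exact mem_sup_span.2 ⟨-r, by simpa [add_right_comm] using sub_mem this (Submodule.smul_mem _ t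
        (mem_sup_right (mem_span_singleton_self _)))⟩
    have a4 : h • x ∉ A := fun u => q (Pol.mem_perp'.1 d _ u)
    have a5 : img (φ h) (A ⊔ span F {x}) = A ⊔ span F {h • x} := by
      rw [← b, ← Set.smul_set_singleton, ← smul_span, ← smul_sup', b]
      exact SetLike.ext fun v => by simp only [mem_smul_pointwise_iff_exists, act, mem_map]; rfl
    have a6 : x ∉ A ⊔ span F {h • x} := fun u => q (P.refl (Pol.mem_perp_sup.1 (Pol.mem_perp.2
      fun z hz => ((Pol.ts_sup a (P.sinv h c) hx) z hz).2 x u)).2)
    have a7 : (A ⊔ span F {x}) ⊓ (A ⊔ span F {h • x}) = A := by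
      refine (eq_of_le_of_finrank_le (le_inf le_sup_left le_sup_left) ?_).symm
      have := finrank_lt_finrank_of_lt (inf_lt_left.2 fun u : A ⊔ span F {x} ≤ _ =>
        a6 (u (mem_sup_right (mem_span_singleton_self _))))
      rw [finrank_sup_span e] at this
      omega
    have := (parity_iff hQ hE a2 (le_antisymm (a2.two_mul_finrank_le hQ) (by
      have := (Pol.le_perp (P := P) A).trans (Nat.add_le_add_left (finrank_mono a3) _)
      rw [finrank_sup_span a6, finrank_sup_span a4] at this
      rw [finrank_sup_span e]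
      omega)) _).2 (ev h)
    rw [a5, a7, finrank_sup_span e] at this
    simp at this
  · refine eq_one_of_pow (V := V) F hg fun z e => ?_
    have o (u : V) : polar Q (g • z - z) (g • u - u) = 0 := by
      have := P.isom g (g • z - z) u
      rw [e] at this
      rw [polar_sub_right, sub_eq_zero]
      exact this
    by_cases h2 : (2 : F) = 0
    · by_contra q
      have q1 : Q (g • z - z) ≠ 0 := mt (h z) q
      have : movS (φ g) = span F {g • z - z} := by
        refine le_antisymm (fun v hv => ?_) ((span_singleton_le_iff_mem _ _).2 (act g z ▸ sub_mem_movS _ z))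
        obtain ⟨u, rfl⟩ := mem_movS.1 hv
        rw [← act]
        haveI : CharP F 2 := CharTwo.of_one_ne_zero_of_two_eq_zero one_ne_zero h2
        obtain ⟨t, ht⟩ := FiniteField.isSquare_of_char_two (ringChar.eq F 2)
          (Q (g • u - u) / Q (g • z - z))
        have e1 : g • (t • z + u) - (t • z + u) = t • (g • z - z) + (g • u - u) := by
          rw [smul_add g, smul_comm g t, smul_sub t]; abel
        have := h (t • z + u) (show Q _ = 0 by
          rw [e1, Q_add, Q_smul, B_smul_left, o, pow_two, ← ht, div_mul_cancel₀ _ q1]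
          linear_combination Q (g • u - u) * h2)
        rw [← sub_eq_zero, e1] at this
        exact mem_span_singleton.2 ⟨-t, by rw [neg_smul, neg_eq_iff_add_eq_zero, this]⟩
      have := ev g
      rw [rk, ‹movS _ = _›, finrank_span_singleton (sub_ne_zero.2 q)] at this
      simp at this
    · exact h z ((mul_eq_zero.1 ((B_self Q _).symm.trans (o z))).resolve_left h2)

theorem hasSt_omega {F : Type*} [Field F] [Finite F] {p : ℕ} [hp : Fact p.Prime] [CharP F p]
    {ι : Type} [Fintype ι] [DecidableEq ι] {Q : QuadraticForm F (ι → F)} (hQ : ND Q)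
    (hE : NonExc Q) : HasSt p (POmega F ⇑Q) := by
  haveI : FaithfulSMul (Omega F ⇑Q) (ι → F) :=
    ⟨fun h => Subtype.ext (Subtype.ext (Units.ext (Matrix.ext_iff_mulVec.2 h)))⟩
  exact hasSt_orth hQ hE (fun g => isoEquiv Q g.1) (fun _ _ => rfl) (fun g => (mem_Omega_iff _).1 g.2)
    fun s hs => ⟨⟨(isoEquiv Q).symm s, (mem_Omega_iff _).2 (by simpa using hs)⟩, by simp⟩

end Cfsg.Agent.H9.St
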