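import Cfsg.Agent.H9.StFlag

/-! The Steinberg character of groups acting on polar spaces. -/

set_option autoImplicit false

namespace Cfsg.Agent.H9.St

open Module Submodule
open scoped Pointwise

variable {H F V : Type*} [Group H] [Field F] [AddCommGroup V] [Module F V] [DistribMulAction H V]
  [SMulCommClass H F V]

variable (H F V) in
/-- a polar space -/
structure Pol where
  σ : F →+* F
  B : V →ₛₗ[σ] V →ₗ[F] F
  sing : V → Prop
  refl : ∀ {x y}, B x y = 0 → B y x = 0
  rep : Function.Surjective B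
  zero : sing 0
  smul : ∀ (a : F) {x}, sing x → sing (a • x)
  add : ∀ {x y}, sing x → sing y → B x y = 0 → sing (x + y)
  iso : ∀ {x}, sing x → B x x = 0
  hyp : ∀ {x w}, sing x → B x w ≠ 0 → ∃ a : F, sing (w + a • x)
  isom : ∀ (g : H) x y, B (g • x) (g • y) = B x y
  sinv : ∀ (g : H) {x}, sing x → sing (g • x)

namespace Pol

variable (P : Pol H F V)

/-- totally singular subspaces -/
def TS (U : Submodule F V) : Prop := ∀ u ∈ U, P.sing u ∧ ∀ v ∈ U, P.B u v = 0

/-- the perpendicular subspace -/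
def perp (D : Submodule F V) : Submodule F V := ⨅ z ∈ D, LinearMap.ker (P.B z)

/-- the polar geometry -/
noncomputable abbrev geo : Geo H F V where
  T := P.TS
  inv g U h u hu := ⟨by simpa using P.sinv g (h _ (mem_smul.1 hu)).1, fun v hv => by
    rw [← P.isom g⁻¹]; exact (h _ (mem_smul.1 hu)).2 _ (mem_smul.1 hv)⟩
  bot := by simp [TS, P.zero]
  m := sSup ((fun U : Submodule F V => finrank F U) '' {U | P.TS U})

/-- opposition -/
def Opp (c d : Ch P.geo) : Prop := ∀ j ≤ P.geo.m, Disjoint (c j) (P.perp (d j))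

variable {P}

theorem mem_perp {D : Submodule F V} {x : V} : x ∈ P.perp D ↔ ∀ z ∈ D, P.B z x = 0 := by
  simp [perp]

theorem mem_perp' {D : Submodule F V} {x : V} : x ∈ P.perp D ↔ ∀ z ∈ D, P.B x z = 0 :=
  mem_perp.trans (forall₂_congr fun _ _ => ⟨P.refl, P.refl⟩)

theorem mem_perp_span {S : Set V} {x : V} : x ∈ P.perp (span F S) ↔ ∀ z ∈ S, P.B z x = 0 :=
  ⟨fun h z a => mem_perp.1 h z (subset_span a), fun h => mem_perp'.2 (span_le.2
    (show S ⊆ LinearMap.ker (P.B x) from fun z a => P.refl (h z a)))⟩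

theorem mem_perp_sup {D : Submodule F V} {x y : V} :
    x ∈ P.perp (D ⊔ span F {y}) ↔ x ∈ P.perp D ∧ P.B y x = 0 := by
  rw [← span_eq D, ← span_union, mem_perp_span, mem_perp_span]
  exact ⟨fun h => ⟨fun z a => h z (.inl a), h y (.inr rfl)⟩,
    fun h z a => a.elim (h.1 z) fun e => e ▸ h.2⟩

theorem perp_anti {C D : Submodule F V} (h : C ≤ D) : P.perp D ≤ P.perp C :=
  fun _ a => mem_perp.2 fun z b => mem_perp.1 a z (h b)

theorem smul_mem_perp {D : Submodule F V} {x : V} {g : H} : g • x ∈ P.perp (g • D) ↔ x ∈ P.perp D := by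
  simp only [mem_perp]
  exact ⟨fun h z a => P.isom g z x ▸ h _ (smul_mem.2 a), fun h z a => by
    rw [← smul_inv_smul g z, P.isom, h _ (mem_smul.1 a)]⟩

theorem sep {D : Submodule F V} {y : V} (h : y ∉ D) : ∃ w ∈ P.perp D, P.B w y ≠ 0 := by
  obtain ⟨ψ, a, b⟩ := D.exists_le_ker_of_notMem h
  obtain ⟨w, rfl⟩ := P.rep ψ
  exact ⟨w, mem_perp'.2 b, a⟩

theorem ts_span {S : Set V} (h : ∀ u ∈ S, P.sing u ∧ ∀ v ∈ S, P.B u v = 0) : P.TS (span F S) := by
  have : ∀ u ∈ span F S, ∀ v ∈ span F S, P.B u v = 0 := fun u a v b =>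
    mem_perp.1 (span_le.2 (fun z e => mem_perp_span.2 fun w e' => (h w e').2 z e) b) u a
  refine fun u hu => ⟨?_, this u hu⟩
  induction hu using span_induction with
  | mem x a => exact (h x a).1
  | zero => exact P.zero
  | add x y a b c d => exact P.add c d (this x a y b)
  | smul a x _ c => exact P.smul a c

theorem ts_sup {D : Submodule F V} (h : P.TS D) {y : V} (a : P.sing y) (b : y ∈ P.perp D) :
    P.TS (D ⊔ span F {y}) := by
  rw [← span_eq D, ← span_union]
  refine ts_span ?_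
  rintro u (e | rfl)
  · exact ⟨(h u e).1, fun v e' => e'.elim ((h u e).2 v) fun q => q ▸ mem_perp.1 b u e⟩
  · exact ⟨a, fun v e' => e'.elim (mem_perp'.1 b v) fun q => by rw [q]; exact P.iso a⟩

variable [FiniteDimensional F V]

theorem le_perp (D : Submodule F V) : finrank F V ≤ finrank F D + finrank F (P.perp D) := by
  let b := finBasis F D
  let L : V →ₗ[F] (Fin (finrank F D) → F) := LinearMap.pi fun i => P.B (b i)
  have e : LinearMap.ker L ≤ P.perp D := fun x hx => mem_perp'.2 fun z hz => by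
    have := congrArg Subtype.val (b.sum_repr ⟨z, hz⟩)
    simp only [AddSubmonoidClass.coe_finset_sum, SetLike.val_smul] at this
    rw [← this, map_sum]
    exact Finset.sum_eq_zero fun i _ => by rw [map_smul, P.refl (congrFun hx i), smul_zero]
  have := L.finrank_range_add_finrank_ker
  have := finrank_mono e
  have := finrank_le (LinearMap.range L)
  rw [finrank_fin_fun] at this
  omega

theorem disj_symm {C D : Submodule F V} (h : Disjoint C (P.perp D)) (e : finrank F C = finrank F D) :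
    Disjoint D (P.perp C) := by
  have a : C ⊔ P.perp D = ⊤ := eq_top_of_finrank_eq (le_antisymm (finrank_le _) (by
    have := finrank_sup_add_finrank_inf_eq C (P.perp D)
    rw [h.eq_bot, finrank_bot] at this
    have := le_perp (P := P) D
    omega))
  refine disjoint_def.2 fun y hy hy' => by_contra fun q => ?_
  obtain ⟨w, -, b⟩ := sep (P := P) (D := ⊥) q
  obtain ⟨u, hu, v, hv, rfl⟩ := mem_sup.1 (a ▸ mem_top : w ∈ C ⊔ P.perp D)
  simp [mem_perp.1 hy' u hu, mem_perp'.1 hv y hy] at b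

theorem bdd : BddAbove ((fun U : Submodule F V => finrank F U) '' {U | P.TS U}) :=
  ⟨finrank F V, by rintro _ ⟨U, -, rfl⟩; exact finrank_le U⟩

variable {c d : Ch P.geo}

theorem mem_top (d : Ch P.geo) {x : V} (a : P.sing x) (b : x ∈ P.perp (d P.geo.m)) :
    x ∈ d P.geo.m := by_contra fun e => by
  have : finrank F ↥(d P.geo.m ⊔ span F {x}) ≤ P.geo.m := le_csSup bdd ⟨_, ts_sup (d.ts _) a b, rfl⟩
  rw [finrank_sup_span e, d.rk' le_rfl] at this
  omega

theorem orth (c : Ch P.geo) {i j : ℕ} {x y : V} (a : x ∈ c i) (b : y ∈ c j) : P.B x y = 0 :=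
  (c.ts _ _ (c.mono (le_max_left i j) a)).2 _ (c.mono (le_max_right i j) b)

theorem new (c : Ch P.geo) {k : ℕ} (hk : k < P.geo.m) {D : Submodule F V} (e : finrank F D = k)
    (h : Disjoint (c k) (P.perp D)) : ∃ x ∈ c (k + 1), x ∈ P.perp D ∧ x ∉ c k := by
  by_contra! q
  have := finrank_add_finrank_le_of_disjoint (disjoint_def.2 fun x a b =>
    disjoint_def.1 h x (q x a b) b)
  have := le_perp (P := P) D
  rw [c.rk' hk] at *
  omega

theorem step {k : ℕ} {D : Submodule F V} (h : Disjoint (c k) (P.perp D)) {x y : V}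
    (a : x ∈ c (k + 1)) (b : x ∈ P.perp D) (e : x ∉ c k) (q : P.B y x ≠ 0) :
    Disjoint (c (k + 1)) (P.perp (D ⊔ span F {y})) := disjoint_def.2 fun z u v => by
  obtain ⟨t, ht⟩ := mem_sup_span.1 (c.cover a e ▸ u)
  rw [mem_perp_sup] at v
  obtain rfl := sub_eq_zero.1 (disjoint_def.1 h _ ht (sub_mem v.1 ((P.perp D).smul_mem t b)))
  simp_all

theorem Opp.symm (h : P.Opp c d) : P.Opp d c := fun j hj =>
  disj_symm (h j hj) (by rw [Ch.rk, Ch.rk])

theorem Opp.smul (h : P.Opp c d) (g : H) : P.Opp (g • c) (g • d) := fun j hj =>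
  disjoint_def.2 fun x a b => by
    rw [← smul_inv_smul g x] at a b ⊢
    rw [disjoint_def.1 (h j hj) _ (smul_mem.1 a) (smul_mem_perp.1 b), smul_zero]

theorem Opp.new (h : P.Opp c d) {k : ℕ} (hk : k < P.geo.m) :
    ∃ x ∈ c (k + 1), x ∈ P.perp (d k) ∧ x ∉ c k :=
  Pol.new c hk (d.rk' hk.le) (h k hk.le)

theorem Opp.norm (h : P.Opp c d) {k : ℕ} (hk : k < P.geo.m) {x : V} (a : x ∈ c (k + 1))
    (b : x ∈ P.perp (d k)) (e : x ∉ c k) : ∃ y ∈ d (k + 1), y ∈ P.perp (c k) ∧ P.B x y = 1 := by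
  obtain ⟨y, u, v, w⟩ := h.symm.new hk
  have : P.B x y ≠ 0 := fun q => e (disjoint_def.1 (h _ hk) x a
    (d.cover u w ▸ mem_perp_sup.2 ⟨b, P.refl q⟩) ▸ zero_mem _)
  exact ⟨(P.B x y)⁻¹ • y, (d _).smul_mem _ u, (P.perp _).smul_mem _ v, by simp [this]⟩

theorem exists_opp (c : Ch P.geo) : ∃ d, P.Opp c d := by
  refine exists_ch (fun j D => Disjoint (c j) (P.perp D)) (by simp [c.zero]) fun k hk D a b h => ?_
  obtain ⟨x, x1, x2, x3⟩ := new c hk b h
  obtain ⟨w, w1, w2⟩ := sep (P := P) (D := D) (y := x) fun q => x3 (disjoint_def.1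
    (disj_symm h (by rw [b, c.rk' hk.le])) x q (mem_perp.2 fun z e => orth c e x1) ▸ zero_mem _)
  obtain ⟨t, ht⟩ := P.hyp (c.ts _ _ x1).1 (mt P.refl w2)
  have : P.B (w + t • x) x ≠ 0 := by simpa [orth c x1 x1] using w2
  exact ⟨_, fun q => this (mem_perp.1 x2 _ q), ts_sup a ht (add_mem w1 ((P.perp D).smul_mem t x2)),
    step h x1 x2 x3 this⟩

theorem inj [Finite V] (c : Ch P.geo) (f) (hf : f ∈ stm P.geo P.geo.m)
    (h : ∀ d, P.Opp c d → f d = 0) : f = 0 := by
  have (k : ℕ) (hk : k ≤ P.geo.m) : ∀ d : Ch P.geo,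
      (∀ j ≤ k, Disjoint (c j) (P.perp (d j))) → f d = 0 := by
    induction hk using Nat.decreasingInduction with
    | self => exact h
    | of_succ k hk ih =>
      intro d hd
      obtain ⟨x, x1, x2, x3⟩ := new c hk (d.rk' hk.le) (hd k le_rfl)
      have a := hyper hf d k (LinearMap.ker (P.B x)) (fun d' a b => ih d' fun j hj => by
        rcases hj.lt_or_eq with e | rfl
        · exact a j (by omega) ▸ hd j (by omega)
        · obtain ⟨y, u, v⟩ := SetLike.not_le_iff_exists.1 b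
          rw [d'.cover u (fun q => v (mem_perp'.1 x2 _ (a k le_rfl ▸ q))), a k le_rfl]
          exact step (hd k le_rfl) x1 x2 x3 (mt P.refl v)) hk le_rfl (by omega)
      have (j : ℕ) (hj : j ≤ P.geo.m) (hj' : k ≤ j) : ∀ d' : Ch P.geo, (∀ i ≤ k, d' i = d i) →
          x ∉ d' j → f d' = 0 := by
        induction hj using Nat.decreasingInduction with
        | self => exact fun d' u v => a d' u fun q => v (mem_top d' (c.ts _ _ x1).1 (mem_perp'.2 q))
        | of_succ j hj ih =>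
          intro d' u v
          by_cases e : x ∈ d' (j + 1)
          · refine vanish hf (i := j + 1) (by omega) hj fun d'' s t => ih (by omega) d''
              (fun i hi => (s i (by omega) (by omega)).trans (u i hi)) fun q => t ?_
            have := s j hj.le (by omega)
            rw [d'.cover e v, d''.cover q (this ▸ v), this]
          · exact ih (by omega) d' u e
      exact this k hk.le le_rfl d (fun _ _ => rfl) fun q => x3 (disjoint_def.1 (disj_symm
        (hd k le_rfl) (by rw [Ch.rk, Ch.rk])) x q (mem_perp.2 fun z e => orth c e x1) ▸ zero_mem _)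
  exact funext fun d => this 0 (by omega) d fun j hj => by simp [Nat.le_zero.1 hj, c.zero]

theorem Opp.apt [Finite V] (h : P.Opp c d) : ∃ f ∈ stm P.geo P.geo.m, f d ≠ 0 ∧
    ∀ d', P.Opp c d' → d' ≠ d → f d' = 0 := by
  choose e e1 e2 e3 using fun i : Fin P.geo.m => h.new i.2
  choose f f1 f2 f3 using fun i : Fin P.geo.m => h.norm i.2 (e1 i) (e2 i) (e3 i)
  have ef (i j : Fin P.geo.m) (q : i ≠ j) : P.B (e i) (f j) = 0 := by
    rcases lt_or_gt_of_ne q with a | a
    · exact mem_perp.1 (f2 j) _ (c.mono (Nat.succ_le_of_lt a) (e1 i))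
    · exact mem_perp'.1 (e2 i) _ (d.mono (Nat.succ_le_of_lt a) (f1 j))
  let v : ℤˣ → Fin P.geo.m → V := fun t i => if t = 1 then f i else e i
  have v1 (t i) : P.sing (v t i) := by
    simp only [v]; split_ifs; exacts [(d.ts _ _ (f1 i)).1, (c.ts _ _ (e1 i)).1]
  have v2 (t t' i j) (q : i ≠ j) : P.B (v t i) (v t' j) = 0 := by
    simp only [v]; split_ifs
    exacts [orth d (f1 i) (f1 j), P.refl (ef j i q.symm), ef i j q, orth c (e1 i) (e1 j)]
  have v3 (t i) : P.B (v (-t) i) (v t i) ≠ 0 := by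
    rcases Int.units_eq_one_or t with rfl | rfl
    · simp [v, f3]
    · exact mt P.refl (by simp [v, f3])
  let a : Equiv.Perm (Fin P.geo.m) × (Fin P.geo.m → ℤˣ) → Fin P.geo.m → V := fun w l =>
    v (w.2 l) (w.1 l)
  let γ := fun w => ofVec (Γ := P.geo) (a w) (.of_pairwise_dual_eq_zero_one _
    (fun l => (P.B (v (-w.2 l) (w.1 l)) (a w l))⁻¹ • P.B (v (-w.2 l) (w.1 l)))
    (fun i j q => by simp [a, v2 _ _ _ _ (w.1.injective.ne q)]) fun i => by simp [a, v3])
    fun j => ts_span (by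
      rintro _ ⟨i, -, rfl⟩
      refine ⟨v1 _ _, ?_⟩
      rintro _ ⟨l, -, rfl⟩
      by_cases q : i = l
      · exact q ▸ P.iso (v1 _ _)
      · exact v2 _ _ _ _ (w.1.injective.ne q))
  have : γ 1 = d := Ch.ext' fun j hj => d.sp_eq (fun i => ⟨by simpa [a, v] using f1 i, fun q => by
    simpa [a, v, f3] using mem_perp'.1 (e2 i) _ q⟩) hj
  rw [← this] at h ⊢
  refine St.apt γ (fun w => ((Equiv.Perm.sign w.1 * ∏ l, w.2 l : ℤˣ) : ℤ)) (fun i u b => ?_) (by simp)
    (fun w u => ?_) h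
  · obtain ⟨i, rfl⟩ := Nat.exists_eq_add_of_le' u
    rcases b.lt_or_eq with b | b
    · let s : Equiv.Perm (Fin P.geo.m) := .swap ⟨i, by omega⟩ ⟨i + 1, b⟩
      refine ⟨(Equiv.mulRight s).prodCongr (s.arrowCongr (.refl _)), fun w => ⟨?_, fun j _ q =>
        sp_swap (a w) b q⟩⟩
      have : ∏ l, (w.2 (s l) : ℂ) = ∏ l, (w.2 l : ℂ) := Equiv.prod_comp s fun l => (w.2 l : ℂ)
      simp [s, Equiv.Perm.sign_swap, Fin.ext_iff] at this ⊢
      simp [this]
    · refine ⟨(Equiv.refl _).prodCongr (.mulRight (Pi.mulSingle ⟨i, by omega⟩ (-1))),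
        fun w => ⟨by simp [Finset.prod_mul_distrib], fun j hj q => ?_⟩⟩
      refine congrArg (span F) (Set.image_congr fun l hl => ?_)
      have : l ≠ ⟨i, by omega⟩ := fun q' => by subst q'; simp at hl; omega
      simp [a, this]
  · have (i : Fin P.geo.m) : ∃ l ≤ i, w.1 l = i ∧ w.2 l = 1 := by
      by_contra! q
      refine e3 i (disjoint_def.1 (u _ i.2) _ (e1 i) (mem_perp_span.2 ?_) ▸ zero_mem _)
      rintro _ ⟨l, hl, rfl⟩
      by_cases s : w.2 l = 1
      · simpa [a, v, s] using P.refl (ef i (w.1 l) fun q' => q l (Nat.le_of_lt_succ hl) q'.symm s)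
      · simpa [a, v, s] using orth c (e1 _) (e1 i)
    have q : w.1 = 1 := inv_eq_one.1 (perm_eq_one fun i => by
      obtain ⟨l, s, rfl, -⟩ := this i; simpa using s)
    exact Prod.ext q (funext fun i => by obtain ⟨l, -, rfl, t⟩ := this i; simpa [q] using t)

variable {p : ℕ} [hp : Fact p.Prime] [CharP F p]

theorem Opp.fix (h : P.Opp c d) {g : H} {k : ℕ} (hg : g ^ p ^ k = 1) (a : g • c = c) (b : g • d = d)
    (j : ℕ) (hj : j ≤ P.geo.m) : ∀ x ∈ c j, g • x = x := by
  induction j with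
  | zero => simp [c.zero]
  | succ j ih =>
    obtain ⟨y, u, v, w⟩ := h.new hj
    intro x hx
    obtain ⟨t, ht⟩ := mem_sup_span.1 (c.cover u w ▸ hx)
    have := disjoint_def.1 (h j (by omega)) _ (Ch.sub_mem hg a u)
      (sub_mem (by rw [← b]; exact smul_mem_perp.2 v) v)
    have := ih (by omega) _ ht
    simp_all [sub_eq_zero, smul_sub, smul_comm g t]

theorem ax [Finite V] [Finite H] [FaithfulSMul H V]
    (eich : ∀ x y y', P.sing x → P.sing y → P.sing y' → P.B x y = 1 → P.B x y' = 1 →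
      ∃ g : H, g • y = y' ∧ ∀ z, P.B x z = 0 → ∃ a : F, g • z = z + a • x)
    (two : ∀ (h : H) A x, P.TS A → h • A = A → P.sing x → x ∈ P.perp A → x ∉ A →
      P.B x (h • x) ≠ 0 → ∃ w, P.sing w ∧ w ∈ P.perp A ∧ P.B x w ≠ 0 ∧ w ∉ A ⊔ span F {h • x})
    (an : ∀ (g : H) k, g ^ p ^ k = 1 → (∀ z, P.sing (g • z - z) → g • z = z) → g = 1) :
    Ax p H (stm P.geo P.geo.m) P.Opp := by
  have le (c : Ch P.geo) : c P.geo.m ≤ P.perp (c P.geo.m) := fun x a => mem_perp.2 fun z b => orth c b a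
  have un (c : Ch P.geo) (k : ℕ) (hk : k < P.geo.m) (x y y') (a : x ∈ c (k + 1)) (a' : x ∉ c k)
      (b : P.sing y) (b' : P.sing y') (e : P.B x y = 1) (e' : P.B x y' = 1)
      (q : y - y' ∈ P.perp (c k)) : ∃ g ∈ c.uni _ (le c), g • y = y' ∧ ∀ z, P.B x z = 0 →
        ∃ t : F, g • z = z + t • x ∧ (t = 0 ↔ P.B (y - y') z = 0) := by
    obtain ⟨g, g1, g2⟩ := eich x y y' (c.ts _ _ a).1 b b' e e'
    have g3 : ∀ z, P.B x z = 0 → ∃ t : F, g • z = z + t • x ∧ (t = 0 ↔ P.B (y - y') z = 0) :=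
      fun z hz => by
        obtain ⟨t, ht⟩ := g2 z hz
        have := P.isom g y z
        have : P.B y' x ≠ 0 := mt P.refl (by simp [e'])
        exact ⟨t, ht, by simp_all [← ‹_ = P.B y z›]⟩
    refine ⟨g, ⟨fun j z hz => ?_, fun z hz => ?_⟩, g1, g3⟩
    · obtain ⟨t, t1, t2⟩ := g3 z (orth c a hz)
      rw [t1, add_sub_cancel_left]
      rcases le_or_gt (k + 1) j with s | s
      · exact (c j).smul_mem _ (c.mono s a)
      · simp [t2.2 (mem_perp'.1 (c.cover a a' ▸ mem_perp_sup.2 ⟨q, by simp [e, e']⟩) z (c.mono s hz))]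
    · obtain ⟨t, t1, -⟩ := g3 z (mem_perp.1 hz x (c.mono hk a))
      simpa [t1] using (c _).smul_mem t (c.mono hk a)
  refine ⟨?_, stm_inv, fun g c d h => h.smul g, inj, fun c d h => h.apt, exists_opp,
    fun g k c d hg h a b => an g k hg fun z hz => ?_, fun c => ⟨c.uni _ (le c), fun u => ?_,
      Ch.uni_fix, fun d d' a b => ?_, fun h a => ?_⟩⟩
  · obtain ⟨M, hM, e⟩ := Nat.sSup_mem (Set.Nonempty.image _ ⟨⊥, P.geo.bot⟩) (bdd (P := P))
    obtain ⟨d, -⟩ := exists_ch (Γ := P.geo) (fun _ D => D ≤ M) bot_le fun k hk D _ a b =>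
      let ⟨y, u, v⟩ := SetLike.not_le_iff_exists.1 fun q : M ≤ D =>
        absurd (finrank_mono q) (by rw [a, show finrank F M = P.geo.m from e]; omega)
      have := sup_le b ((span_singleton_le_iff_mem _ _).2 u)
      ⟨y, v, fun s t => ⟨(hM s (this t)).1, fun s' t' => (hM s (this t)).2 s' (this t')⟩, this⟩
    exact ⟨d⟩
  · have (y : V) (q : g • y = y) : P.B y (g • z - z) = 0 := by
      rw [map_sub, sub_eq_zero, ← P.isom g y z, q]
    exact sub_eq_zero.1 (disjoint_def.1 (h _ le_rfl) _ (mem_top c hz (mem_perp.2 fun y q => this y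
      (h.fix hg a b _ le_rfl y q))) (mem_perp.2 fun y q => this y (h.symm.fix hg b a _ le_rfl y q)))
  · let N := DistribMulAction.toModuleEnd F V (u : H) - 1
    have (j : ℕ) (x : V) : (N ^ j) x ∈ P.perp (c j) := by
      induction j with
      | zero => simp [mem_perp, c.zero]
      | succ j ih =>
        refine mem_perp.2 fun z hz => ?_
        have := mem_perp.1 ih _ ((inv_mem u.2).1 j z hz)
        rw [map_sub, LinearMap.sub_apply, ← P.isom (u : H), smul_inv_smul] at this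
        simpa [pow_succ', N] using this
    obtain ⟨k, hk⟩ := pow_eq_one_of_nil (F := F) (V := V) (p := p) (u := (u : H))
      ⟨P.geo.m + 1 + P.geo.m, LinearMap.ext fun x => by
        rw [pow_add, pow_succ]
        exact Ch.pow_apply u.2.1 _ _ (u.2.2 _ (this _ x))⟩
    exact ⟨k, Subtype.ext (by simpa using hk)⟩
  · have (k : ℕ) (hk : k ≤ P.geo.m) : ∃ u ∈ c.uni _ (le c), ∀ j ≤ k, (u • d) j = d' j := by
      induction k with
      | zero => exact ⟨1, one_mem _, by simp [Ch.zero]⟩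
      | succ k ih =>
        obtain ⟨u, hu, e⟩ := ih (by omega)
        have a' := a.smul u
        rw [Ch.uni_fix u hu] at a'
        obtain ⟨x, x1, x2, x3⟩ := b.new hk
        obtain ⟨y, y1, y2, y3⟩ := a'.norm hk x1 (e k le_rfl ▸ x2) x3
        obtain ⟨z, z1, z2, z3⟩ := b.norm hk x1 x2 x3
        obtain ⟨g, hg, g1, g2⟩ := un c k hk x y z x1 x3 ((u • d).ts _ _ y1).1 (d'.ts _ _ z1).1 y3 z3
          (sub_mem y2 z2)
        refine ⟨g * u, mul_mem hg hu, fun j hj => ?_⟩
        have q : ∀ j ≤ k, ∀ w ∈ (u • d) j, g • w ∈ d' j := fun j hj w hw => by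
          have hw' := e j hj ▸ hw
          obtain ⟨t, t1, t2⟩ := g2 w (mem_perp'.1 x2 w (d'.mono hj hw'))
          simpa [t1, t2.2 (by simp [orth _ y1 hw, orth _ z1 hw'])] using hw'
        rw [mul_smul]
        refine smul_eq_of (fun w hw => ?_) (by rw [Ch.rk, Ch.rk])
        rcases hj.lt_or_eq with q' | rfl
        · exact q j (by omega) w hw
        · obtain ⟨s, hs⟩ := mem_sup_span.1 ((u • d).cover y1 (fun q => by
            simpa [y3] using mem_perp'.1 x2 _ (e k le_rfl ▸ q)) ▸ hw)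
          simpa [smul_sub, smul_comm g s, g1] using
            add_mem (d'.succ k (q k le_rfl _ hs)) ((d' _).smul_mem s z1)
    obtain ⟨u, hu, e⟩ := this _ le_rfl
    exact ⟨u, hu, Ch.ext' e⟩
  · refine Ch.ext' fun k hk => ?_
    induction k with
    | zero => simp [Ch.zero]
    | succ k ih =>
      have ih := ih (by omega)
      obtain ⟨x, x1, x2⟩ := c.exists_new hk
      have y1 : h • x ∈ (h • c) (k + 1) := smul_mem.2 x1
      have y2 := (h • c).cover y1 (mt smul_mem.1 x2)
      have xs := (c.ts _ _ x1).1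
      have y3 : h • x ∈ P.perp (c k) := ih ▸ mem_perp.2 fun z q => orth _ q y1
      by_contra q
      by_cases e : P.B x (h • x) = 0
      · obtain ⟨v, v1, v2⟩ := sep (P := P) (D := c (k + 1)) (y := h • x) fun s => q (by
          rw [y2, ih, ← c.cover s (ih ▸ mt smul_mem.1 x2)])
        obtain ⟨w, -, w2⟩ := sep (P := P) x2
        obtain ⟨t, ht⟩ := P.hyp xs (mt P.refl w2)
        obtain ⟨y, u1, u2⟩ : ∃ y, P.sing y ∧ P.B x y = 1 :=
          ⟨_, P.smul (P.B x w)⁻¹ ht, by simp [P.iso xs, mt P.refl w2]⟩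
        have vx := mem_perp.1 v1 x x1
        obtain ⟨t, ht⟩ := P.hyp (w := y - v) xs (by simp [u2, vx])
        obtain ⟨g, hg, -, g2⟩ := un c k hk x y _ x1 x2 u1 ht u2 (by simp [u2, vx, P.iso xs]) (by
          simpa [sub_add] using sub_mem (perp_anti (c.succ k) v1)
            ((P.perp _).smul_mem t (mem_perp.2 fun z q => orth c q x1)))
        obtain ⟨r, r1, r2⟩ := g2 _ e
        have : x ∈ (h • c) (k + 1) := (Submodule.smul_mem_iff _ (mt r2.1 (by simpa [e] using v2))).1
          (by simpa [r1] using sub_mem (Ch.smul_mem (a g hg) y1) y1)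
        exact q (by rw [(h • c).cover this (ih ▸ x2), ih, ← c.cover x1 x2])
      · obtain ⟨w, w1, w2, w3, w4⟩ := two h (c k) x (c.ts k) ih xs
          (mem_perp.2 fun z q => orth c q x1) x2 e
        obtain ⟨g, hg, g1, -⟩ := un c k hk x _ _ x1 x2 (P.smul (P.B x (h • x))⁻¹ (P.sinv h xs))
          (P.smul (P.B x w)⁻¹ w1) (by simp [e]) (by simp [w3])
          (sub_mem ((P.perp _).smul_mem _ y3) ((P.perp _).smul_mem _ w2))
        refine w4 ((Submodule.smul_mem_iff _ (inv_ne_zero w3)).1 ?_)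
        rw [← g1, ← ih, ← y2]
        exact Ch.smul_mem (a g hg) (((h • c) _).smul_mem _ y1)

end Pol

end Cfsg.Agent.H9.St
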