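import Cfsg.Agent.H9.Chief
import Cfsg.Agent.H9.Strong
import Cfsg.Agent.H9.Sec2
import Cfsg.Agent.L.PSolv
import Cfsg.Agent.H1.Frobenius

/-!
Thompson's reduction for normal `p`-complements.
-/

set_option autoImplicit false
set_option linter.unusedSectionVars false

namespace Cfsg.Agent.H9

open Subgroup
open scoped commutatorElement

universe u

variable {p : ℕ} [Fact p.Prime]

section
variable {G : Type*} [Group G] [Finite G]

theorem not_le_commutator_sup {S U V : Subgroup G} [U.Normal] [V.Normal] (hS : IsPGroup p S)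
    (hUS : U ≤ S) (hUV : ¬ U ≤ V) : ¬ U ≤ ⁅U, S⁆ ⊔ V := by
  intro h
  have h1 := Subgroup.map_mono (f := QuotientGroup.mk' V) h
  rw [map_sup_self, map_commutator] at h1
  have := (hS.map (QuotientGroup.mk' V)).isNilpotent
  have := ‹U.Normal›.map _ (QuotientGroup.mk'_surjective V)
  exact (H2.commutator_lt_of_nilpotent (Subgroup.map_mono hUS) le_normalizer_of_normal
    (fun he => hUV (le_iff_map_eq_bot.2 he))).not_ge h1

/-- If the Sylow subgroup is maximal, an element outside `O_p` of small degree on a chief factor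
forces the chief factor to be central. -/
theorem commutator_top_le_of_coatom {S : Subgroup G} (hS : IsSylowIn p S ⊤)
    (hM : ∀ H : Subgroup G, S ≤ H → H ≠ ⊤ → H ≤ S) {g : G} (hgS : g ∈ S) (hgP : g ∉ pCore p G)
    {U V : Subgroup G} (hc : IsChiefFactor U V) (hU : U ≤ pCore p G)
    (hg : iterCommutator U (zpowers g) (p - 1) ≤ V) : ⁅U, (⊤ : Subgroup G)⁆ ≤ V := by
  have hUn := hc.2.1
  have hVn := hc.2.2.1
  have hUS : U ≤ S := hU.trans (pCore_le_of_isSylowIn hS)
  set D := ⁅U, S⁆ ⊔ V with hD
  let ψ₀ : U →* Abelianization U ⧸ (D.subgroupOf U).map Abelianization.of :=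
    (QuotientGroup.mk' _).comp Abelianization.of
  have hψ₀ : ∀ x : U, ψ₀ x = 1 ↔ (x : G) ∈ D := fun x => by
    refine (QuotientGroup.eq_one_iff _).trans ?_
    rw [← mem_comap, comap_map_eq, Abelianization.ker_of, sup_eq_left.2, mem_subgroupOf]
    rw [subgroupOf, ← map_le_iff_le_comap, map_subtype_commutator]
    exact (commutator_mono le_rfl hUS).trans le_sup_left
  let ψ : G → (U →* Abelianization U ⧸ (D.subgroupOf U).map Abelianization.of) := fun t =>
    ψ₀.comp (MulAut.conjNormal t⁻¹).toMonoidHom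
  have hψ3 : ∀ (g t : G) (z : U), ψ (g * t) z = ψ t (MulAut.conjNormal g⁻¹ z) := fun g t z => by
    simp only [ψ, MonoidHom.comp_apply, mul_inv_rev, map_mul]
    rfl
  have hψ1 : ∀ s ∈ S, ∀ z : U, ψ₀ (MulAut.conjNormal s z) = ψ₀ z := fun s hs z => by
    rw [← mul_inv_eq_one, ← map_inv, ← map_mul, hψ₀]
    refine mem_sup_left ?_
    rw [commutator_comm]
    exact commutator_mem_commutator hs z.2
  have hψ2 : ∀ s t : G, (s : G ⧸ S) = t → ψ s = ψ t := by
    intro s t hst
    ext z
    have hm : s⁻¹ * t ∈ S := QuotientGroup.eq.1 hst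
    have : t = s * (s⁻¹ * t) := by group
    rw [this, hψ3]
    exact (hψ1 _ (inv_mem hm) _).symm
  letI := S.fintypeQuotientOfFiniteIndex
  have e : ∀ (g : G) (c : G ⧸ S) (x : U),
      ψ (g • c).out x = ψ c.out (MulAut.conjNormal g⁻¹ x) := fun g c x => by
    rw [← hψ3, hψ2 (g • c).out (g * c.out)]
    rw [QuotientGroup.out_eq', ← smul_eq_mul, MulAction.Quotient.coe_smul_out]
  have h1 : ∀ x : U, ∏ c : G ⧸ S, ψ c.out x = ψ₀ x := fun x => by
    have := prod_quotient_eq hS le_rfl hM hgS hgP (fun c => ψ c.out x) fun k c => by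
      simp only [e, ← inv_pow]
      have hY' : ∀ y : U, (y : G) ∈ V → ψ c.out y = 1 := fun y hy =>
        (hψ₀ _).2 (mem_sup_right (hVn.conj_mem _ hy _))
      refine prod_conj_eq_one (X := U) (Y := V) (ψ c.out) hY' (fun z hz => ?_) ?_ x.2
      · rw [← map_pow]
        exact hY' _ (chief_pow_mem hc ((L.pCore_isPGroup p).to_le hU) _ hz)
      · rw [zpowers_inv]
        exact iterCommutator_cj_le hg k
    rw [this, hψ2 _ 1 (QuotientGroup.out_eq' _)]
    simp [ψ]
  have h2 : ⁅U, (⊤ : Subgroup G)⁆ ≤ D := by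
    rw [commutator_comm, commutator_le]
    intro h _ x hx
    have h3 : ψ₀ (MulAut.conjNormal h ⟨x, hx⟩) = ψ₀ ⟨x, hx⟩ := by
      rw [← h1, ← h1]
      refine Fintype.prod_equiv (MulAction.toPerm h⁻¹) _ _ fun c => ?_
      rw [MulAction.toPerm_apply, e, inv_inv]
    rw [← mul_inv_eq_one, ← map_inv, ← map_mul, hψ₀] at h3
    exact h3
  by_contra h3
  refine not_le_commutator_sup hS.isPGroup hUS hc.1.not_ge ?_
  rw [← hD]
  conv_lhs => rw [← chief_eq_of_not_le hc (commutator_le_left U ⊤) h3]
  exact sup_le h2 le_sup_right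

theorem isPSolvable_of_hasNormalPComplement (h : HasNormalPComplement p G) :
    IsPSolvable p G := by
  rw [H1.hasNormalPComplement_iff_not_dvd] at h
  exact L.isPSolvable_of_ext (pResidual p G) (L.isPSolvable_of_coprime
    ((Nat.Prime.coprime_iff_not_dvd Fact.out).2 h).symm)
    (L.isPSolvable_of_isPGroup (H1.isPGroup_quotient_pResidual))

end

variable {W : ∀ (Q : Type u) [Group Q], Subgroup Q}

theorem npc_normalizer_ind_subgroup (hW : IsCharPFunctor p W) {G : Type u} [Group G] [Finite G]
    {T H : Subgroup G} (hT : IsPGroup p T) (hTH : T ≤ H)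
    (h : HasNormalPComplement p (normalizer (inducedFunctor W T : Set G))) :
    HasNormalPComplement p (normalizer (inducedFunctor W (T.subgroupOf H) : Set H)) := by
  have h1 := map_normalizer_ind_le hW hT hTH
  rw [top_inf_eq] at h1
  exact (H1.hasNormalPComplement_congr (equivMapOfInjective _ _ H.subtype_injective)).2
    (H1.hasNormalPComplement_of_le h (h1.trans inf_le_right))

theorem npc_step (hW : IsCharPFunctor p W) {G : Type u} [Group G] [Finite G]
    (ih : ∀ (Y : Type u) [Group Y] [Finite Y], Sec Y G → Nat.card Y < Nat.card G →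
      ∀ T : Subgroup Y, IsSylowIn p T ⊤ →
        HasNormalPComplement p (normalizer (inducedFunctor W T : Set Y)) →
        HasNormalPComplement p Y)
    {S : Subgroup G} (hS : IsSylowIn p S ⊤)
    (hN : HasNormalPComplement p (normalizer (inducedFunctor W S : Set G)))
    (hloc : Constrained p G → HasNormalPComplement p (G ⧸ pCore p G) → IsCoatom S →
      (inducedFunctor W S).Normal) : HasNormalPComplement p G := by
  have hsub : ∀ H T : Subgroup G, H ≠ ⊤ → IsSylowIn p T H →
      HasNormalPComplement p (normalizer (inducedFunctor W T : Set G)) →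
      HasNormalPComplement p H := fun H T hH hT h =>
    ih H (Sec.subgroup H) (card_subgroup_lt hH) _ (isSylowIn_subgroupOf hT)
      (npc_normalizer_ind_subgroup hW hT.isPGroup hT.le h)
  by_cases hD : pPrimeCore p G = ⊥
  swap
  · have hk : ¬ p ∣ Nat.card (pPrimeCore p G) :=
      (Nat.Prime.coprime_iff_not_dvd Fact.out).1 (L.pPrimeCore_coprime p).symm
    refine H1.hasNormalPComplement_of_quotient_not_dvd hk (ih _ (Sec.quotient _)
      (card_quotient_lt hD) _ (isSylowIn_map_top hS (QuotientGroup.mk'_surjective _)) ?_)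
    rw [← map_normalizer_ind_of_coprime hW (QuotientGroup.mk'_surjective _)
      (by rwa [QuotientGroup.ker_mk']) hS.isPGroup]
    exact H1.hasNormalPComplement_map _ hN
  by_cases hP : pCore p G = ⊥
  · have key : ∀ m, ∀ U T : Subgroup G, IsPGroup p U → U ≠ ⊥ →
        IsSylowIn p T (normalizer (U : Set G)) → Nat.card G - Nat.card T < m →
        HasNormalPComplement p (normalizer (U : Set G)) := by
      intro m
      induction m with
      | zero => intro _ _ _ _ _ h; omega
      | succ m ihm =>
        intro U T hU hU0 hT hm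
        refine hsub _ T (normalizer_ne_top_of_not_le_pCore hU (by rwa [hP, le_bot_iff])) hT ?_
        obtain ⟨S', hS', hTS⟩ := exists_isSylowIn_ge hT.isPGroup (le_top : T ≤ ⊤)
        rcases hTS.eq_or_lt with rfl | hlt
        · obtain ⟨g, -, rfl⟩ := hS.exists_cj_eq hS'
          rw [cf_cj (ind_isConjugacyFunctor hW) hS.isPGroup, ← cj_normalizer]
          exact H1.hasNormalPComplement_map _ hN
        · have h1 := lt_inf_normalizer_cf (ind_isConjugacyFunctor hW) hS'.isPGroup hlt
          obtain ⟨T', hT', hle⟩ := exists_isSylowIn_ge (hS'.isPGroup.to_inf_left) (inf_le_right :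
            S' ⊓ normalizer (inducedFunctor W T : Set G) ≤ _)
          have h2 := card_lt_of_lt (h1.trans_le hle)
          have h3 := card_le_card_group T'
          refine ihm _ T' (hT.isPGroup.to_le (ind_le W T)) (ind_ne_bot hW hT.isPGroup ?_) hT'
            (by omega)
          intro h0
          exact hU0 (le_bot_iff.1 (h0 ▸ hT.le_of_normal hU le_normalizer le_rfl))
    refine H1.frobenius_local fun D hD hD0 => ?_
    obtain ⟨T, hT⟩ := exists_isSylowIn p (normalizer (D : Set G))
    exact key _ D T hD hD0 hT (Nat.lt_succ_self _)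
  by_cases hSP : S ≤ pCore p G
  · have h1 : S = pCore p G := le_antisymm hSP (pCore_le_of_isSylowIn hS)
    have h2 : normalizer (inducedFunctor W S : Set G) = ⊤ := by
      rw [eq_top_iff, ← normalizer_eq_top (H := pCore p G), ← h1]
      exact cf_normalizer_le (ind_isConjugacyFunctor hW) hS.isPGroup
    rw [h2] at hN
    exact H1.hasNormalPComplement_top_iff.1 hN
  have hsubS : ∀ H : Subgroup G, S ≤ H → H ≠ ⊤ → HasNormalPComplement p H := fun H h1 h2 =>
    hsub H S h2 (hS.mono h1 le_top) hN
  have hq : HasNormalPComplement p (G ⧸ pCore p G) := by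
    obtain ⟨h1, h2⟩ := comap_normalizer_ind_ne_top hW hS hSP
    refine ih _ (Sec.quotient _) (card_quotient_lt hP) _
      (isSylowIn_map_top hS (QuotientGroup.mk'_surjective _)) ?_
    have := H1.hasNormalPComplement_map (QuotientGroup.mk' (pCore p G)) (hsubS _ h1 h2)
    rwa [map_comap_eq_self_of_surjective (QuotientGroup.mk'_surjective _)] at this
  have hc : Constrained p G := L.centralizer_pCore_le (L.isPSolvable_of_ext (pCore p G)
    (L.isPSolvable_of_isPGroup (L.pCore_isPGroup p)) (isPSolvable_of_hasNormalPComplement hq)) hD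
  by_cases hST : S = ⊤
  · subst hST
    exact H1.hasNormalPComplement_of_isPGroup (hS.isPGroup.of_equiv topEquiv)
  have hco : IsCoatom S := by
    refine ⟨hST, fun H hH => ?_⟩
    by_contra hH'
    have h1 := hsubS H hH.le hH'
    have hPH : pCore p G ≤ H := (pCore_le_of_isSylowIn hS).trans hH.le
    refine hH.ne (hS.eq_of_le (isPGroup_of_forall_coprime fun x hx hxp => ?_) le_top hH.le).symm
    have h2 := hc (H1.mem_centralizer_of_hasNormalPComplement h1 (L.pCore_isPGroup p) hPH
      (H1.mem_pResidualOf hx hxp) (mem_normalizer_of_normal _ _))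
    obtain ⟨k, hk⟩ := H1.isPGroup_iff_mem.1 (L.pCore_isPGroup p) x h2
    exact H1.eq_one_of_pow_of_coprime hk hxp
  have := hloc hc hq hco
  rw [normalizer_eq_top] at hN
  exact H1.hasNormalPComplement_top_iff.1 hN

/-- Thompson's reduction. -/
theorem npc_of_local (hW : IsCharPFunctor p W) {G : Type u} [Group G] [Finite G]
    (hloc : ∀ (K R : Subgroup G) [(R.subgroupOf K).Normal], Constrained p (K ⧸ R.subgroupOf K) →
      HasNormalPComplement p ((K ⧸ R.subgroupOf K) ⧸ pCore p (K ⧸ R.subgroupOf K)) →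
      ∀ T : Sylow p (K ⧸ R.subgroupOf K), IsCoatom (T : Subgroup (K ⧸ R.subgroupOf K)) →
      (inducedFunctor W (T : Subgroup (K ⧸ R.subgroupOf K))).Normal) :
    ∀ (X : Type u) [Group X], Sec X G → ∀ T : Subgroup X, IsSylowIn p T ⊤ →
      HasNormalPComplement p (normalizer (inducedFunctor W T : Set X)) →
      HasNormalPComplement p X := by
  refine sec_induction _ fun X _ _ hX ih T hT hN => ?_
  obtain ⟨K, R, hR, -, ⟨e⟩⟩ := hX.exists_equiv
  refine (H1.hasNormalPComplement_congr e).1 ?_
  obtain ⟨T', hT'⟩ := (isSylowIn_map_top hT (f := e.symm.toMonoidHom)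
    e.symm.surjective).exists_sylow_top
  refine npc_step hW (fun Y _ _ hY hlt => ih Y (hY.trans (Sec.of_equiv e)) ?_)
    (isSylowIn_top T') ?_ fun h1 h2 h3 => hloc K R h1 h2 T' h3
  · rwa [← Nat.card_congr e.toEquiv]
  · rw [hT', ← ind_map_injective hW e.symm.injective hT.isPGroup, ← map_equiv_normalizer_eq]
    exact H1.hasNormalPComplement_map _ hN

end Cfsg.Agent.H9
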